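import Cfsg.Agent.Schur.Crit
import Cfsg.Agent.Char.More

/-!
Schur covers and projective representations; the exponent of the multiplier; duality.
-/

namespace CF.Schur

open Subgroup Function Cfsg
open scoped commutatorElement

universe u v w

/-- Multiply a homomorphism by a homomorphism with central values. -/
def twist {E X : Type*} [Group E] [Group X] (φ χ : E →* X) (h : ∀ x, χ x ∈ center X) : E →* X :=
  MonoidHom.mk' (fun x => φ x * χ x) fun a b => by
    rw [map_mul, map_mul, mul_assoc, mul_assoc, ← mul_assoc (χ a) (φ b),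
      ← mem_center_iff.1 (h a) (φ b), mul_assoc]

@[simp] theorem twist_apply {E X : Type*} [Group E] [Group X] (φ χ : E →* X)
    (h : ∀ x, χ x ∈ center X) (x : E) : twist φ χ h x = φ x * χ x := rfl

/-- The quotient of two homomorphisms which agree modulo a central subgroup. -/
def diffHom {E X : Type*} [Group E] [Group X] (φ ψ : E →* X) (K : Subgroup X) (hK : K ≤ center X)
    (h : ∀ x, (φ x)⁻¹ * ψ x ∈ K) : E →* K :=
  MonoidHom.mk' (fun x => ⟨(φ x)⁻¹ * ψ x, h x⟩) fun a b => Subtype.ext (by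
    show (φ (a * b))⁻¹ * ψ (a * b) = ((φ a)⁻¹ * ψ a) * ((φ b)⁻¹ * ψ b)
    rw [map_mul, map_mul, mul_inv_rev, ← mul_assoc _ (φ b)⁻¹,
      ← mem_center_iff.1 (hK (h a))]
    group)

@[simp] theorem coe_diffHom {E X : Type*} [Group E] [Group X] (φ ψ : E →* X) (K : Subgroup X)
    (hK : K ≤ center X) (h : ∀ x, (φ x)⁻¹ * ψ x ∈ K) (x : E) :
    (diffHom φ ψ K hK h x : X) = (φ x)⁻¹ * ψ x := rfl

/-- Divisible abelian groups are injective. -/
theorem exists_extend_of_divisible {A B D : Type*} [Group A] [CommGroup B] [Group D]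
    (hc : ∀ a b : D, a * b = b * a) (hD : ∀ n : ℕ, n ≠ 0 → ∀ d : D, ∃ w, w ^ n = d)
    (i : A →* B) (hi : Injective i) (f : A →* D) : ∃ g : B →* D, g.comp i = f := by
  let _ : CommGroup A := { (inferInstance : Group A) with
    mul_comm := fun a b => hi (by rw [map_mul, map_mul, mul_comm]) }
  let _ : CommGroup D := { (inferInstance : Group D) with mul_comm := hc }
  let _ : DivisibleBy (Additive D) ℕ := divisibleByOfSMulRightSurj _ _ fun {n} hn d => hD n hn d
  let _ : DivisibleBy (Additive D) ℤ := AddGroup.divisibleByIntOfDivisibleByNat _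
  obtain ⟨g, hg⟩ := (Module.Baer.of_divisible (Additive D)).extension_property_addMonoidHom
    (MonoidHom.toAdditive i) hi (MonoidHom.toAdditive f)
  exact ⟨MonoidHom.toAdditive.symm g, MonoidHom.ext fun a => DFunLike.congr_fun hg a⟩

variable {G : Type u} [Group G]

/-- If `ψ : E → Γ` is injective on `E'`-part of its kernel, a lift `φ` into a central extension with
divisible kernel can be corrected so as to factor through `ψ`. -/
theorem exists_factor_of_divisible {E Γ X : Type*} [Group E] [Group Γ] [Group X] {ε : E →* G}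
    {σ : Γ →* G} {ξ : X →* G} (hξ : CExt ξ)
    (hD : ∀ n : ℕ, n ≠ 0 → ∀ d : ξ.ker, ∃ w, w ^ n = d) {ψ : E →* Γ} (hψ : Surjective ψ)
    (e : σ.comp ψ = ε) (hi : ∀ x ∈ mul ε, ψ x = 1 → x = 1) {φ : E →* X} (e' : ξ.comp φ = ε) :
    ∃ ρ : Γ →* X, ξ.comp ρ = σ := by
  have hk : ∀ x : ψ.ker, ε x = 1 := fun x => by
    rw [← e, MonoidHom.comp_apply, show ψ x = 1 from x.2, map_one]
  have hi' : Injective (Abelianization.of.comp ψ.ker.subtype) := by
    rw [injective_iff_map_eq_one]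
    intro x hx
    exact Subtype.ext (hi x ⟨hk x, (QuotientGroup.eq_one_iff _).1 hx⟩ x.2)
  let f : ψ.ker →* ξ.ker := (φ.comp ψ.ker.subtype).codRestrict _ fun x => by
    show ξ (φ x) = 1
    rw [← MonoidHom.comp_apply, e', hk]
  obtain ⟨g, hg⟩ := exists_extend_of_divisible
    (fun a b : ξ.ker => Subtype.ext (hξ.comm b.2 a)) hD _ hi' f
  let χ : E →* X := ξ.ker.subtype.comp (g.comp (invMonoidHom.comp Abelianization.of))
  have hχ : ∀ x, χ x = (g (Abelianization.of x) : X)⁻¹ := fun x => by simp [χ]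
  have hχ' : ∀ x, χ x ∈ ξ.ker := fun x => (g _).2
  let φ' := twist φ χ fun x => hξ.central (hχ' x)
  have hker : ψ.ker ≤ φ'.ker := fun x hx => by
    have h1 : g (Abelianization.of x) = f ⟨x, hx⟩ := DFunLike.congr_fun hg ⟨x, hx⟩
    show φ x * χ x = 1
    rw [hχ, h1]
    exact mul_inv_cancel (φ x)
  refine ⟨ψ.liftOfSurjective hψ ⟨φ', hker⟩, MonoidHom.ext fun y => ?_⟩
  obtain ⟨x, rfl⟩ := hψ y
  have : ψ.liftOfSurjective hψ ⟨φ', hker⟩ (ψ x) = φ' x :=
    ψ.liftOfRightInverse_comp_apply _ _ ⟨φ', hker⟩ x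
  show ξ (ψ.liftOfSurjective hψ ⟨φ', hker⟩ (ψ x)) = σ (ψ x)
  rw [this, twist_apply, map_mul, show ξ (χ x) = 1 from hχ' x, mul_one,
    ← MonoidHom.comp_apply, e', ← e]; rfl

/-- A Schur cover maps to every central extension with divisible kernel. -/
theorem HasSchur.exists_lift_of_divisible {A : Type v} [CommGroup A] (h : HasSchurMultiplier G A)
    {Γ : Type*} [Group Γ] {σ : Γ →* G} (hσ : IsStemExtension σ) (hk : Nonempty (σ.ker ≃* A))
    {X Q : Type*} [Group X] [Group Q] {ξ : X →* Q} (hξ : CExt ξ)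
    (hD : ∀ n : ℕ, n ≠ 0 → ∀ d : ξ.ker, ∃ w, w ^ n = d) (γ : G →* Q) :
    ∃ ρ : Γ →* X, ξ.comp ρ = γ.comp σ := by
  have hε := isCov_taut G
  obtain ⟨ψ, e⟩ := hε.exists_lift' (stem_cext hσ)
  obtain ⟨φ, e'⟩ := hε.exists_lift' (hξ.pull γ)
  obtain ⟨ρ, hρ⟩ := exists_factor_of_divisible (hξ.pull γ) (fun n hn d => by
      obtain ⟨w, hw⟩ := hD n hn (pullKerEquiv ξ γ d)
      exact ⟨(pullKerEquiv ξ γ).symm w, by rw [← map_pow, hw, MulEquiv.symm_apply_apply]⟩)
    (surjective_of_over_stem hσ hε.surj e) e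
    (fun x hx => HasSchur.injOn_of_cover h hε hσ hk e hx) e'
  refine ⟨(pullFst ξ γ).comp ρ, ?_⟩
  rw [← MonoidHom.comp_assoc, pull_comm, MonoidHom.comp_assoc, hρ]

theorem center_GL_divisible (n : ℕ) (m : ℕ) (hm : m ≠ 0)
    (d : (QuotientGroup.mk' (center (GL (Fin n) ℂ))).ker) : ∃ w, w ^ m = d := by
  obtain ⟨d, hd⟩ := d
  have hd' := hd
  rw [QuotientGroup.ker_mk', Matrix.GeneralLinearGroup.center_eq_range_scalar] at hd'
  obtain ⟨c, rfl⟩ := hd'
  obtain ⟨z, hz⟩ := IsAlgClosed.exists_pow_nat_eq (c : ℂ) (Nat.pos_of_ne_zero hm)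
  have hz0 : z ≠ 0 := fun h => c.ne_zero (by rw [← hz, h, zero_pow hm])
  refine ⟨⟨Matrix.GeneralLinearGroup.scalar (Fin n) (Units.mk0 z hz0), ?_⟩, Subtype.ext ?_⟩
  · rw [QuotientGroup.ker_mk', Matrix.GeneralLinearGroup.center_eq_range_scalar]
    exact ⟨_, rfl⟩
  · show Matrix.GeneralLinearGroup.scalar (Fin n) (Units.mk0 z hz0) ^ m = _
    rw [← map_pow]
    congr 1
    exact Units.ext hz

theorem scalar_injective {n : ℕ} (hn : 0 < n) :
    Injective (Matrix.GeneralLinearGroup.scalar (R := ℂ) (Fin n)) := by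
  intro a b hab
  have := congrArg (fun g : GL (Fin n) ℂ => (g : Matrix (Fin n) (Fin n) ℂ) ⟨0, hn⟩ ⟨0, hn⟩) hab
  exact Units.ext (by simpa using this)

/-- An irreducible matrix representation lying over a linear character of a central subgroup. -/
theorem exists_matrix_rep_over {Γ : Type*} [Group Γ] [Finite Γ] (Z : Subgroup Γ)
    (hZ : Z ≤ center Γ) (lam : Z →* ℂˣ) :
    ∃ (n : ℕ) (ρ : Γ →* GL (Fin n) ℂ), 0 < n ∧ n ^ 2 ≤ Z.index ∧
      ∀ z : Z, ρ z = Matrix.GeneralLinearGroup.scalar (Fin n) (lam z) := by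
  obtain ⟨χ, hχ, hl⟩ := CF.Char.exists_irr_over_central Z hZ lam
  have hχ' := hχ
  obtain ⟨n, ρ, hρ, rfl⟩ := hχ'
  have h1 : ρ.character 1 = n := by simp [Representation.char_one]
  have hn : 0 < n := Nat.pos_of_ne_zero fun h => CF.Char.irr_one_ne_zero hχ (by rw [h1, h]; simp)
  have hZ' : Z ≤ CF.Char.charCenter ρ.character := hZ.trans (CF.Char.center_le_charCenter hχ)
  refine ⟨n, (((LinearMap.toMatrixAlgEquiv' (R := ℂ) (n := Fin n)).toMonoidHom).comp ρ).toHomUnits,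
    hn, (CF.Char.irr_one_sq_le_index hχ h1).trans (index_antitone hZ'), fun z => ?_⟩
  obtain ⟨ω, hω⟩ := (CF.Char.mem_charCenter_character ρ).1 (hZ' z.2)
  have h2 : ρ.character z = ω * n := by
    show LinearMap.trace ℂ _ (ρ z) = _
    rw [hω]; simp
  have h3 := hl z 1
  rw [mul_one, h2, h1] at h3
  have h4 : ω = lam z := mul_right_cancel₀ (by exact_mod_cast hn.ne') h3
  apply Units.ext
  show LinearMap.toMatrixAlgEquiv' (ρ z) = Matrix.scalar (Fin n) (lam z : ℂ)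
  rw [hω, h4]
  ext i j
  simp [LinearMap.toMatrixAlgEquiv'_apply, Matrix.diagonal_apply, Pi.single_apply]

theorem exists_linear_ne_one {A : Type*} [Group A] [Finite A] (hc : ∀ a b : A, a * b = b * a)
    {a : A} (ha : a ≠ 1) : ∃ lam : A →* ℂˣ, lam a ≠ 1 := by
  obtain ⟨mu, -, h⟩ := CF.Char.exists_linear_of_not_mem_of_comm hc ⊥ (g := a) (by simpa using ha)
  exact ⟨mu, h⟩

theorem exists_linear_orderOf {A : Type*} [Group A] [Finite A] (hc : ∀ a b : A, a * b = b * a)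
    (a : A) : ∃ lam : A →* ℂˣ, orderOf (lam a) = orderOf a := by
  obtain ⟨l, hl⟩ := CF.Char.exists_linear_injective_of_isCyclic (G := zpowers a)
  obtain ⟨mu, h⟩ := CF.Char.exists_linear_extend_of_comm hc (zpowers a) l
  refine ⟨mu, ?_⟩
  rw [show mu a = l ⟨a, mem_zpowers a⟩ from h ⟨a, mem_zpowers a⟩, orderOf_injective l hl,
    Subgroup.orderOf_mk]

/-- If all projective representations lift along `σ`, the canonical map is injective. -/
theorem injOn_of_proj_lift [Finite G] {E : Type*} [Group E] {ε : E →* G} (hε : IsCov ε)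
    {Γ : Type*} [Group Γ] {σ : Γ →* G}
    (hlift : ∀ (n : ℕ) (γ : G →* (GL (Fin n) ℂ ⧸ center (GL (Fin n) ℂ))),
      ∃ ρ : Γ →* GL (Fin n) ℂ, (QuotientGroup.mk' (center (GL (Fin n) ℂ))).comp ρ = γ.comp σ)
    {ψ : E →* Γ} (e : σ.comp ψ = ε) {x : E} (hx : x ∈ mul ε) (h1 : ψ x = 1) : x = 1 := by
  obtain ⟨Δ, _, _, τ, hτ, ⟨e₀⟩⟩ := hε.exists_cover
  obtain ⟨φ, e'⟩ := hε.exists_lift' (stem_cext hτ)
  let _ := hε.toCExt.commGroup
  have hS : HasSchurMultiplier G (mul ε) := hε.hasSchurMultiplier_iff.2 ⟨MulEquiv.refl _⟩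
  refine HasSchur.injOn_of_cover hS hε hτ ⟨e₀⟩ e' hx ?_
  have hφ : φ x ∈ τ.ker := by
    show τ (φ x) = 1
    rw [← MonoidHom.comp_apply, e']; exact hx.1
  by_contra hne
  obtain ⟨lam, hl⟩ := exists_linear_ne_one
    (fun a b : τ.ker => Subtype.ext ((stem_cext hτ).comm b.2 a)) (a := ⟨φ x, hφ⟩)
    (fun h => hne (congrArg Subtype.val h))
  obtain ⟨n, ρ₀, hn, -, hρ₀⟩ := exists_matrix_rep_over τ.ker hτ.2.1 lam
  have hk : τ.ker ≤ ((QuotientGroup.mk' (center (GL (Fin n) ℂ))).comp ρ₀).ker := fun z hz => by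
    show ((ρ₀ z : GL (Fin n) ℂ) : GL (Fin n) ℂ ⧸ center (GL (Fin n) ℂ)) = 1
    rw [QuotientGroup.eq_one_iff, show ρ₀ z = _ from hρ₀ ⟨z, hz⟩,
      Matrix.GeneralLinearGroup.center_eq_range_scalar]
    exact ⟨_, rfl⟩
  let γ := τ.liftOfSurjective hτ.1 ⟨_, hk⟩
  have hγ : γ.comp τ = (QuotientGroup.mk' (center (GL (Fin n) ℂ))).comp ρ₀ :=
    τ.liftOfRightInverse_comp _ _ ⟨_, hk⟩
  obtain ⟨ρ, hρ⟩ := hlift n γ
  have h2 := eq_on_commutator (ξ := QuotientGroup.mk' (center (GL (Fin n) ℂ)))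
    (by rw [QuotientGroup.ker_mk']) (φ := ρ₀.comp φ) (ψ := ρ.comp ψ) (by
      rw [← MonoidHom.comp_assoc, ← MonoidHom.comp_assoc, ← hγ, hρ, MonoidHom.comp_assoc,
        MonoidHom.comp_assoc, e, e']) hx.2
  rw [MonoidHom.comp_apply, MonoidHom.comp_apply, h1, map_one,
    show ρ₀ (φ x) = _ from hρ₀ ⟨φ x, hφ⟩] at h2
  exact hl (scalar_injective hn (h2.trans (map_one _).symm))

theorem pow_eq_one_of_rep {Γ : Type*} [Group Γ] {n : ℕ} (ρ : Γ →* GL (Fin n) ℂ) {z : Γ}
    (hz : z ∈ _root_.commutator Γ) {c : ℂˣ}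
    (h : ρ z = Matrix.GeneralLinearGroup.scalar (Fin n) c) : c ^ n = 1 := by
  have := Abelianization.commutator_subset_ker (Matrix.GeneralLinearGroup.det.comp ρ) hz
  rw [MonoidHom.mem_ker, MonoidHom.comp_apply, h, Matrix.GeneralLinearGroup.det_scalar] at this
  simpa using this

theorem orderOf_sq_le_index {Γ : Type*} [Group Γ] [Finite Γ] (Z : Subgroup Γ)
    (hZ : Z ≤ center Γ) {z : Γ} (hz : z ∈ Z) (hz' : z ∈ _root_.commutator Γ) :
    orderOf z ^ 2 ≤ Z.index := by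
  obtain ⟨lam, hl⟩ := exists_linear_orderOf
    (fun a b : Z => Subtype.ext (mem_center_iff.1 (hZ b.2) a)) ⟨z, hz⟩
  obtain ⟨n, ρ, hn, h1, h2⟩ := exists_matrix_rep_over Z hZ lam
  have h3 := orderOf_dvd_of_pow_eq_one (pow_eq_one_of_rep ρ hz' (h2 ⟨z, hz⟩))
  rw [hl, Subgroup.orderOf_mk] at h3
  exact (Nat.pow_le_pow_left (Nat.le_of_dvd hn h3) 2).trans h1

theorem orderOf_sq_dvd_card {Γ : Type*} [Group Γ] [Finite Γ] {σ : Γ →* G} (hσ : CExt σ) {z : Γ}
    (hz : z ∈ mul σ) {p k : ℕ} (hp : p.Prime) (ho : orderOf z = p ^ k) :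
    orderOf z ^ 2 ∣ Nat.card G := by
  have : Fact p.Prime := ⟨hp⟩
  have : Finite G := Finite.of_surjective σ hσ.surj
  have hP : IsPGroup p (zpowers z) := IsPGroup.of_card (by rw [Nat.card_zpowers, ho])
  obtain ⟨S, hS⟩ := hP.exists_le_sylow
  have hzS : z ∈ S := hS (mem_zpowers z)
  have h1 := CF.Transfer.sylow_inf_center_inf_commutator_le S ⟨⟨hzS, hz.2⟩, hσ.mul_le_center hz⟩
  rw [← map_subtype_commutator] at h1
  have h2 := orderOf_sq_le_index (σ.ker.subgroupOf S)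
    (fun x hx => mem_center_iff.2 fun y => Subtype.ext (hσ.comm hx _)) (z := ⟨z, hzS⟩) hz.1
    ((mem_map_iff_mem (S : Subgroup Γ).subtype_injective).1 h1)
  rw [Subgroup.orderOf_mk] at h2
  have h3 : (σ.ker.subgroupOf S).index = Nat.card ((S : Subgroup Γ).map σ) := relIndex_ker _ _
  obtain ⟨m, hm⟩ := (S.isPGroup'.map σ).exists_card_eq
  rw [h3, hm, ho, ← pow_mul] at h2
  rw [ho, ← pow_mul]
  exact (pow_dvd_pow p ((Nat.pow_le_pow_iff_right hp.one_lt).1 h2)).trans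
    (hm ▸ card_subgroup_dvd_card _)

theorem HasSchur.exponent_sq_dvd {A : Type v} [CommGroup A] (h : HasSchurMultiplier G A) :
    Monoid.exponent A ^ 2 ∣ Nat.card G := by
  have := (finite_of_hasSchurMultiplier h).2
  obtain ⟨⟨Γ, _, _, σ, hσ, ⟨e⟩⟩, -⟩ := h
  have h0 : Monoid.exponent A ≠ 0 := Monoid.exponent_ne_zero_of_finite
  rw [Nat.dvd_iff_prime_pow_dvd_dvd]
  intro p k hp hk
  obtain ⟨a, ha⟩ := hp.exists_orderOf_eq_pow_factorization_exponent A
  have h1 : orderOf ((e.symm a : σ.ker) : Γ) = p ^ (Monoid.exponent A).factorization p := by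
    rw [Subgroup.orderOf_coe, e.symm.orderOf_eq, ha]
  have h2 := orderOf_sq_dvd_card (stem_cext hσ) (by rw [stem_mul hσ]; exact (e.symm a).2) hp h1
  rw [h1, ← pow_mul] at h2
  refine (pow_dvd_pow p ?_).trans h2
  have := (hp.pow_dvd_iff_le_factorization (pow_ne_zero 2 h0)).1 hk
  simpa [Nat.factorization_pow, mul_comm] using this

/-- A quotient of a finite abelian group is isomorphic to a subgroup. -/
theorem exists_injective_of_surjective {B C : Type*} [CommGroup B] [Finite B] [Group C]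
    (π : B →* C) (hπ : Surjective π) : ∃ i : C →* B, Injective i := by
  let _ : CommGroup C := { (inferInstance : Group C) with
    mul_comm := fun a b => by
      obtain ⟨a, rfl⟩ := hπ a
      obtain ⟨b, rfl⟩ := hπ b
      rw [← map_mul, ← map_mul, mul_comm] }
  have : Finite C := Finite.of_surjective π hπ
  have : NeZero (Monoid.exponent B : ℂ) := ⟨by exact_mod_cast Monoid.exponent_ne_zero_of_finite⟩
  have : NeZero (Monoid.exponent C : ℂ) := ⟨by exact_mod_cast Monoid.exponent_ne_zero_of_finite⟩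
  obtain ⟨e⟩ := CommGroup.monoidHom_mulEquiv_of_hasEnoughRootsOfUnity B ℂ
  obtain ⟨e'⟩ := CommGroup.monoidHom_mulEquiv_of_hasEnoughRootsOfUnity C ℂ
  let j : (C →* ℂˣ) →* (B →* ℂˣ) := MonoidHom.mk' (fun χ => χ.comp π) fun _ _ => rfl
  have hj : Injective j := fun χ ψ h => MonoidHom.ext fun c => by
    obtain ⟨b, rfl⟩ := hπ c
    exact DFunLike.congr_fun h b
  exact ⟨e.toMonoidHom.comp (j.comp e'.symm.toMonoidHom),
    e.injective.comp (hj.comp e'.symm.injective)⟩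

end CF.Schur
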