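import Cfsg.Agent.Schur.Alt
import Cfsg.Agent.Schur.CovM
import Cfsg.Agent.Schur.LyD
import Cfsg.Agent.Dce.Ly.Main
import Cfsg.Agent.Dce.Ly.G2
import Cfsg.Agent.S2100

/-! The Schur multiplier of Ly. -/

set_option autoImplicit false
set_option maxRecDepth 1000000
set_option maxHeartbeats 0
set_option Elab.async false

namespace CF.Schur.Ly

open CF.Comp CF.Schur.Pc Cfsg CF.Dce CF.Dce.Ly

theorem pbd_cent {G S : Type} [Group G] [Group S] [Finite G] {B : Subgroup G} {π : B →* S} {z : G} {hz : z ∈ B}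
    (hπ : Function.Surjective π) (h : π ⟨z, hz⟩ = 1) (hB : B ≤ Subgroup.centralizer {z}) {p : ℕ} (hp : p.Prime)
    (ho : orderOf z = p) (hc : Nat.card B = p * Nat.card S) (hz' : (⟨z, hz⟩ : B) ∈ _root_.commutator B)
    (hS : _root_.commutator S = ⊤) (hb : PBd S p p) (hi : ¬ p ∣ B.index) : PBd G p 1 := by
  have : Finite S := Finite.of_surjective _ hπ
  have h1 : Nat.card π.ker = p := Nat.eq_of_mul_eq_mul_left (Nat.card_pos (α := S))
    (by rw [← card_eq_mul_ker hπ, hc, mul_comm])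
  have h2 : Subgroup.zpowers (⟨z, hz⟩ : B) = π.ker := Subgroup.eq_of_le_of_card_ge
    ((Subgroup.zpowers_le_of_mem (show _ ∈ π.ker from h)))
    (by rw [h1, Nat.card_zpowers, ← ho, ← Subgroup.orderOf_coe])
  have h3 : CExt π := ⟨hπ, h2 ▸ Subgroup.zpowers_le_of_mem (Subgroup.mem_center_iff.2 fun g =>
    Subtype.ext (Subgroup.mem_centralizer_singleton_iff.1 (hB g.2)))⟩
  exact PBd.of_sub hp B hi (hb.cover (h3.stem (h2 ▸ Subgroup.zpowers_le_of_mem hz')) hS
    (IsPGroup.of_card (n := 1) (by rw [h1, pow_one])) h1.ge)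

theorem not_dvd_index {B : Subgroup L} {c p : ℕ} (hc : Nat.card B = c) (h : ¬ p * c ∣ 51765179004000000) :
    ¬ p ∣ B.index := fun hd => h (by
  rw [← card_L, ← B.index_mul_card, hc]; exact Nat.mul_dvd_mul_right hd _)

theorem card_cent {G : Type*} [Group G] : Nat.card G = Nat.card (G ⧸ Subgroup.center G) * Nat.card (Subgroup.center G) :=
  Subgroup.card_eq_card_quotient_mul_card_subgroup _

theorem pbd2 : PBd L 2 1 := by
  obtain ⟨π, h3, h4⟩ := exists_alt
  obtain ⟨h1, ⟨e⟩, -⟩ := cent_tL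
  have h6 : BA ≤ Subgroup.centralizer {t} := clo_le.2 fun _ _ =>
    ev_mem (fun i => Subgroup.mem_centralizer_singleton_iff.2 (fA_comm i)) _
  obtain ⟨-, -, h8⟩ := cent_eq h3 h4 h6 dvd_rfl (by
    rw [card_cent, h1, Nat.card_congr e.toEquiv, ord_t, card_A11]; decide)
  rw [ord_t] at h8
  exact pbd_cent h3 h4 h6 (by decide) ord_t h8 t_comm (commutator_alternatingGroup_eq_top (by simp))
    Alt.pbda11x2 (not_dvd_index (h8.trans (by rw [card_A11])) (by decide))

theorem cardB : Nat.card (PG M0) = 898128000 ∧ Nat.card BM = 3 * 898128000 := by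
  obtain ⟨π, h3, h4⟩ := exists_mcl
  obtain ⟨h1, -, h2⟩ := cent_xL
  have h := (cent_eq h3 h4 BM_le dvdM (by rw [card_cent, h1, h2, ord_x]; decide)).2
  rwa [ord_x] at h

theorem cardM : Nat.card (PG M0) = 898128000 := cardB.1

instance finM : Finite (PG M0) := Nat.finite_of_card_ne_zero (cardM.trans_ne (by decide))

theorem exM : type_of% (chM.exact (pg_reps (wf_of_wfAll wfM)) (pg_one rfl) (H := ⊤) (fun _ => trivial)
    (Subgroup.card_top.trans cardM).le) :=
  chM.exact (pg_reps (wf_of_wfAll wfM)) (pg_one rfl) (H := ⊤) (fun _ => trivial) (Subgroup.card_top.trans cardM).le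

theorem mdl : type_of% (mdl_of_exact exM fun _ => trivial) := mdl_of_exact exM fun _ => trivial

noncomputable def Wx3 : List (List Nat) := [[(nat_lit 16), (nat_lit 2), (nat_lit 12), (nat_lit 7), (nat_lit 1), (nat_lit 15), (nat_lit 13), (nat_lit 7), (nat_lit 15), (nat_lit 15), (nat_lit 11), (nat_lit 17), (nat_lit 17)],
  [(nat_lit 9), (nat_lit 11), (nat_lit 3), (nat_lit 15), (nat_lit 2), (nat_lit 13), (nat_lit 16), (nat_lit 7), (nat_lit 7), (nat_lit 13), (nat_lit 12), (nat_lit 17)],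
  [(nat_lit 4), (nat_lit 10), (nat_lit 4), (nat_lit 7), (nat_lit 1), (nat_lit 8), (nat_lit 8), (nat_lit 14), (nat_lit 15), (nat_lit 17)],
  [(nat_lit 9), (nat_lit 17), (nat_lit 3), (nat_lit 12), (nat_lit 2), (nat_lit 15), (nat_lit 9), (nat_lit 14), (nat_lit 17), (nat_lit 12), (nat_lit 17), (nat_lit 17)],
  [(nat_lit 2), (nat_lit 7), (nat_lit 9), (nat_lit 1), (nat_lit 13), (nat_lit 17), (nat_lit 9), (nat_lit 7), (nat_lit 18), (nat_lit 14)],
  [(nat_lit 3), (nat_lit 16), (nat_lit 13), (nat_lit 4), (nat_lit 2), (nat_lit 18), (nat_lit 9), (nat_lit 7), (nat_lit 13), (nat_lit 13), (nat_lit 15), (nat_lit 17)]]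

theorem qx3_0 : allFrom (preRow (lapp M0 M1) Nx3 Wx3 7128 13) 0 6 = true := by decide +kernel

theorem qx3 : ∀ j < 6, preRow (lapp M0 M1) Nx3 Wx3 7128 13 j = true := by
  have h : ∀ j < 0, preRow (lapp M0 M1) Nx3 Wx3 7128 13 j = true := by simp
  have h := forall_lt_add h (allFrom_iff.1 qx3_0)
  exact h

theorem wx3 : wfAll Nx3 7128 = true := by decide +kernel

noncomputable def Px3 : Dat := ⟨(nat_lit 3), (nat_lit 6), (nat_lit 11), (nat_lit 7), (nat_lit 28),
  (BT.node (nat_lit 10) (BT.node (nat_lit 5) (BT.node (nat_lit 2) (BT.node (nat_lit 1) (BT.leaf []) (BT.leaf [(nat_lit 1)])) (BT.node (nat_lit 3) (BT.leaf []) (BT.node (nat_lit 4) (BT.leaf [(nat_lit 2), (nat_lit 3)]) (BT.leaf [(nat_lit 2), (nat_lit 4)])))) (BT.node (nat_lit 7) (BT.node (nat_lit 6) (BT.leaf []) (BT.leaf [(nat_lit 3), (nat_lit 5)])) (BT.node (nat_lit 8) (BT.leaf [(nat_lit 3)]) (BT.node (nat_lit 9) (BT.leaf [(nat_lit 3)]) (BT.leaf []))))) (BT.node (nat_lit 15) (BT.node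 (nat_lit 12) (BT.node (nat_lit 11) (BT.leaf [(nat_lit 4)]) (BT.leaf [(nat_lit 4), (nat_lit 5)])) (BT.node (nat_lit 13) (BT.leaf [(nat_lit 4)]) (BT.node (nat_lit 14) (BT.leaf [(nat_lit 4)]) (BT.leaf [])))) (BT.node (nat_lit 18) (BT.node (nat_lit 16) (BT.leaf [(nat_lit 5)]) (BT.node (nat_lit 17) (BT.leaf [(nat_lit 5)]) (BT.leaf [(nat_lit 5)]))) (BT.node (nat_lit 19) (BT.leaf [(nat_lit 5)]) (BT.node (nat_lit 20) (BT.leaf [(nat_lit 5)]) (BT.leaf [])))))),
  [⟨(nat_lit 0), [(nat_lit 1)], [(nat_lit 0), (nat_lit 4), (nat_lit 4), (nat_lit 5), (nat_lit 5)]⟩,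
  ⟨(nat_lit 0), [(nat_lit 3)], [(nat_lit 0), (nat_lit 0), (nat_lit 4), (nat_lit 4), (nat_lit 5), (nat_lit 5)]⟩,
  ⟨(nat_lit 1), [(nat_lit 3)], [(nat_lit 3), (nat_lit 4), (nat_lit 4), (nat_lit 5), (nat_lit 5)]⟩,
  ⟨(nat_lit 1), [(nat_lit 2)], [(nat_lit 2), (nat_lit 2), (nat_lit 3), (nat_lit 4), (nat_lit 5)]⟩,
  ⟨(nat_lit 1), [(nat_lit 4)], [(nat_lit 3), (nat_lit 3), (nat_lit 4), (nat_lit 4), (nat_lit 5), (nat_lit 5)]⟩,
  ⟨(nat_lit 1), [(nat_lit 1)], [(nat_lit 0), (nat_lit 1), (nat_lit 4), (nat_lit 4), (nat_lit 5), (nat_lit 5)]⟩,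
  ⟨(nat_lit 0), [(nat_lit 0)], [(nat_lit 0), (nat_lit 0), (nat_lit 1), (nat_lit 3), (nat_lit 3), (nat_lit 5)]⟩]⟩

noncomputable def Xx3_0 : List Test := [⟨(nat_lit 0), [(nat_lit 1)], [(nat_lit 0), (nat_lit 0), (nat_lit 0)], (nat_lit 0x300000000000000000000000000000000000000000000000000000030000000000000000000000)⟩,
  ⟨(nat_lit 0), [(nat_lit 3)], [(nat_lit 0), (nat_lit 0), (nat_lit 0)], (nat_lit 0x30020000000000000c000000000000000000000001800000000000000000000000000000000000)⟩,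
  ⟨(nat_lit 0), [(nat_lit 3)], [(nat_lit 1), (nat_lit 0)], (nat_lit 0x800000000000010000000000000000000000000000000000000000000000000000000000000000)⟩,
  ⟨(nat_lit 0), [(nat_lit 4)], [(nat_lit 1), (nat_lit 0)], (nat_lit 0x100000000000000004000000000000000000000000000000000000000000000000000000000000)⟩,
  ⟨(nat_lit 0), [(nat_lit 4)], [(nat_lit 3), (nat_lit 1)], (nat_lit 0x800000004000000000000000000000000000000000000000000000000000000000000000000000)⟩,
  ⟨(nat_lit 0), [(nat_lit 3)], [(nat_lit 2), (nat_lit 1)], (nat_lit 0x100000000000000000000010000000000000000000000000000000000000000000000000000000)⟩,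
  ⟨(nat_lit 0), [(nat_lit 4)], [(nat_lit 3), (nat_lit 0)], (nat_lit 0x100000400000000000000000000000000000000000000000000000000000000000000000000000)⟩,
  ⟨(nat_lit 0), [(nat_lit 2), (nat_lit 2)], [(nat_lit 2), (nat_lit 0)], (nat_lit 0x800000000000000000000000000000000800c00000000000018000000000000000000000000000)⟩,
  ⟨(nat_lit 0), [(nat_lit 2), (nat_lit 2)], [(nat_lit 2), (nat_lit 1)], (nat_lit 0x8000000000000000000400000c000000000000000000000c000000000000000000000000000000)⟩,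
  ⟨(nat_lit 0), [(nat_lit 3)], [(nat_lit 2), (nat_lit 0)], (nat_lit 0x800000004008000000000000000000000000000000000000000000000000000000000000000000)⟩,
  ⟨(nat_lit 0), [(nat_lit 2)], [(nat_lit 1), (nat_lit 0)], (nat_lit 0x800000000000000000000080000000080000002000000000000000000000000000000000000000)⟩,
  ⟨(nat_lit 1), [(nat_lit 0), (nat_lit 0), (nat_lit 0)], [], (nat_lit 0x80040180000000000c010000000000180000000000000000000040000020000000000000000003)⟩,
  ⟨(nat_lit 1), [(nat_lit 1), (nat_lit 1), (nat_lit 1)], [], (nat_lit 0x800401800000000018010000000000300800000000000000000000000040000000000000001800)⟩,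
  ⟨(nat_lit 2), [(nat_lit 2), (nat_lit 3)], [(nat_lit 3), (nat_lit 2)], (nat_lit 0x400000000804000000000010080000000000200000000000000000000000000000000000000000)⟩,
  ⟨(nat_lit 2), [(nat_lit 3), (nat_lit 3), (nat_lit 3)], [], (nat_lit 0x600200c018060000000080300c0000000100c00000001000000000000000000000000600000000)⟩,
  ⟨(nat_lit 2), [(nat_lit 4), (nat_lit 3)], [(nat_lit 3), (nat_lit 4)], (nat_lit 0x400000000004000000000000060000000000800000000000000000000000000000000000000000)⟩,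
  ⟨(nat_lit 2), [(nat_lit 2), (nat_lit 5)], [(nat_lit 5), (nat_lit 2)], (nat_lit 0x700200c03800000008000070000080100000000000800000000000000000000000000000000000)⟩,
  ⟨(nat_lit 1), [(nat_lit 0), (nat_lit 6)], [(nat_lit 6), (nat_lit 0)], (nat_lit 0x70000040080000400c000040000080200000000003800000000000070000000000000000000000)⟩]

noncomputable def cx3 : Cert := ⟨Px3, (nat_lit 1), Xx3_0,
  [⟨(nat_lit 0x400000000000000000000000000000000000000000000000000000040000000000000000000000), (nat_lit 3), (nat_lit 8)⟩],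
  [(nat_lit 0),
  (nat_lit 0),
  (nat_lit 0),
  (nat_lit 0x100000000000000000000000000000000000000000000000004000000000000000000000000000),
  (nat_lit 0x100000000000000000000000000000000000000000000002000000000000000000000000000000),
  (nat_lit 0x100000000000000000000000000000000000000000800000000000000000000000000000000000)],
  (BT.node (nat_lit 10) (BT.node (nat_lit 5) (BT.node (nat_lit 2) (BT.node (nat_lit 1) (BT.leaf (nat_lit 1646820)) (BT.leaf (nat_lit 2))) (BT.node (nat_lit 3) (BT.leaf (nat_lit 2158587)) (BT.node (nat_lit 4) (BT.leaf (nat_lit 0)) (BT.leaf (nat_lit 0))))) (BT.node (nat_lit 7) (BT.node (nat_lit 6) (BT.leaf (nat_lit 28750311)) (BT.leaf (nat_lit 0))) (BT.node (nat_lit 8) (BT.leaf (nat_lit 645883292)) (BT.node (nat_lit 9) (BT.leaf (nat_lit 86211783)) (BT.leaf (nat_lit 6561)))))) (BT.node (nat_lit 15) (BT.node (nat_lit 12) (BT.node (nat_lit 11) (BT.leaf (nat_lit 645705416)) (BT.leaf (nat_lit 1033125391))) (BT.node (nat_lit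 13) (BT.leaf (nat_lit 52613874)) (BT.node (nat_lit 14) (BT.leaf (nat_lit 1458)) (BT.leaf (nat_lit 19683))))) (BT.node (nat_lit 18) (BT.node (nat_lit 16) (BT.leaf (nat_lit 162)) (BT.node (nat_lit 17) (BT.leaf (nat_lit 27)) (BT.leaf (nat_lit 59535)))) (BT.node (nat_lit 19) (BT.leaf (nat_lit 243)) (BT.node (nat_lit 20) (BT.leaf (nat_lit 4374)) (BT.leaf (nat_lit 18)))))))⟩

theorem okx3 : cx3.OK := Cert.ok_of_check (by decide) (by decide +kernel)


noncomputable def Lx3 : List Lvl := [⟨(nat_lit 0), [[(nat_lit 19), (nat_lit 29)],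
  [(nat_lit 19), (nat_lit 29)],
  [(nat_lit 21), (nat_lit 27), (nat_lit 27), (nat_lit 29)],
  [(nat_lit 21), (nat_lit 27), (nat_lit 27), (nat_lit 29)],
  [(nat_lit 23), (nat_lit 29), (nat_lit 29)],
  [(nat_lit 23), (nat_lit 29), (nat_lit 29)],
  [(nat_lit 25)],
  [(nat_lit 25)],
  [(nat_lit 27)],
  [(nat_lit 27)],
  [(nat_lit 29)],
  [(nat_lit 29)]], (nat_lit 1)⟩]


noncomputable def gx3 : List (List Nat) := [[(nat_lit 7), (nat_lit 17), (nat_lit 12), (nat_lit 1), (nat_lit 1), (nat_lit 13), (nat_lit 7), (nat_lit 12), (nat_lit 18), (nat_lit 11), (nat_lit 17), (nat_lit 17)],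
  [(nat_lit 11), (nat_lit 9), (nat_lit 2), (nat_lit 4), (nat_lit 2), (nat_lit 18), (nat_lit 7), (nat_lit 7), (nat_lit 13), (nat_lit 15)]]

theorem hx3_0 : allFrom (relRow (sameB (lapp (lapp M0 M1) Nx3) (lmap Lvl.b MC)) 9 Px3) 0 6 = true := by decide +kernel

theorem hx3 : ∀ j < 6, relRow (sameB (lapp (lapp M0 M1) Nx3) (lmap Lvl.b MC)) 9 Px3 j = true := by
  have h : ∀ j < 0, relRow (sameB (lapp (lapp M0 M1) Nx3) (lmap Lvl.b MC)) 9 Px3 j = true := by simp
  have h := forall_lt_add h (allFrom_iff.1 hx3_0)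
  exact h

theorem px3 : lall (prAt (sameB (lapp (lapp M0 M1) Nx3) (lmap Lvl.b MC)) 9 gx3) Px3.prs = true := by decide +kernel

theorem lx3 : lowOK (lapp (lapp M0 M1) Nx3) 7128 9 Px3 Lx3 = true := by decide +kernel

theorem pbdx3 : PBd (⊤ : Subgroup (PG M0)) 3 3 :=
  have h := mdl.app (mdl.new (k := 13) (l := 6) (by decide) wx3 (by decide +kernel) (by decide +kernel) qx3)
  h.pbd h.sameB okx3 (gs := gx3) hx3 px3 lx3 (card_top_eq cardM) (by decide) rfl rfl

noncomputable def RM : List (List Nat) := [[1, 1, 1, 1, 1, 1, 1, 1, 1, 1, 1, 6], [1, 3, 1, 4, 1, 3, 1, 4, 1, 3, 1, 4, 1, 3, 1, 4, 6, 6], [5, 5, 5]]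

theorem relsM : ∀ r ∈ RM, ev fM r = 1 := fun r hr => (ev_evs _ _).trans
  (b_run (fl := 0) (ws := []) (rs := lmap (subst HW) RM) (by decide +kernel) _
    (by rw [lmap_eq]; exact List.mem_map_of_mem hr))

theorem fM_mem (i : ℕ) : fM i ∈ BM := by
  by_cases h : i < 3
  · have := ev_mem_clo fM (mem_gensW h)
    rwa [ev_single] at this
  · rw [show fM i = 1 from evs_eq_one (not_lt.1 h)]; exact one_mem _

theorem x_comm : (⟨x, x_mem⟩ : BM) ∈ _root_.commutator BM := by
  have e : ∀ w, BM.subtype (ev (fun i => (⟨fM i, fM_mem i⟩ : BM)) w) = ev fM w := fun w => map_ev BM.subtype _ w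
  have h := ev_mem_commutator (fun i => (⟨fM i, fM_mem i⟩ : BM)) (m := 3)
    (w := lapp [5] (subst RM [1, 1, 1, 1, 1, 1, 1, 1, 4, 4, 4, 4, 4, 4, 4, 4, 4, 4, 4, 6, 6, 6, 6, 6])) (by decide +kernel)
  rw [ev_lapp, ← ev_evs, ev_const_one (x := evs _ RM), mul_one, show [5] = [2 * 2 + 1] from rfl, ev_single] at h
  · exact h
  · exact fun i => (nth_mem_or [] RM i).elim (fun h => Subtype.ext ((e _).trans (relsM _ h)))
      fun e => by rw [evs, e, ev_nil]

theorem pbd3 : PBd L 3 1 := by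
  obtain ⟨π, h3, h4⟩ := exists_mcl
  have := simpleM cardM
  refine pbd_cent h3 h4 BM_le (by decide) ord_x (cardM ▸ cardB.2) x_comm ?_ (pbdx3.congr Subgroup.topEquiv)
    (not_dvd_index cardB.2 (by decide))
  refine (Subgroup.Normal.eq_bot_or_eq_top inferInstance).resolve_left fun h => ?_
  have h1 := center_eq_bot_of_simple (G := PG M0) (by rw [cardM]; norm_num)
  rw [(commutator_eq_bot_iff_center_eq_top _).1 h] at h1
  exact top_ne_bot h1

theorem pbd5 : PBd L 5 1 := by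
  obtain ⟨e⟩ := equivG2
  have h := HasSchur.congr_left (Cfsg.Agent.S2100.result (F := ZMod 5) (by simp)) (e.symm.trans eK)
  exact PBd.of_sub (by decide) H (by rw [index_H]; decide)
    (pbd_of_not_dvd (by decide) (by rw [card_mult_of_cyclic h]; decide))

theorem schur : HasCyclicSchurMultiplier Spor.Ly 1 :=
  HasSchur.congr_left (trivial_of_mult_le (card_mult_le (b := 67) (k := 8) card_L [(2, 1), (3, 1), (5, 1)]
    (by decide +kernel) (by
      simp only [List.mem_cons, List.not_mem_nil, or_false, forall_eq_or_imp, forall_eq]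
      exact ⟨⟨by decide, pbd2⟩, ⟨by decide, pbd3⟩, ⟨by decide, pbd5⟩⟩))) eL.symm

end CF.Schur.Ly
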