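import Cfsg.Agent.Schur.HNM

set_option autoImplicit false
set_option maxRecDepth 1000000
set_option maxHeartbeats 0
set_option Elab.async false

namespace CF.Schur.HN

open CF.Comp CF.Schur.Pc Cfsg CF.Dce CF.Comp.HN

noncomputable def Px3 : Dat := ⟨(nat_lit 3), (nat_lit 6), (nat_lit 8), (nat_lit 13), (nat_lit 34),
  (BT.node (nat_lit 10) (BT.node (nat_lit 5) (BT.node (nat_lit 2) (BT.node (nat_lit 1) (BT.leaf []) (BT.leaf [(nat_lit 1), (nat_lit 2), (nat_lit 2), (nat_lit 4)])) (BT.node (nat_lit 3) (BT.leaf []) (BT.node (nat_lit 4) (BT.leaf [(nat_lit 2), (nat_lit 5)]) (BT.leaf [(nat_lit 2)])))) (BT.node (nat_lit 7) (BT.node (nat_lit 6) (BT.leaf []) (BT.leaf [(nat_lit 3)])) (BT.node (nat_lit 8) (BT.leaf [(nat_lit 3), (nat_lit 4), (nat_lit 5), (nat_lit 5)]) (BT.node (nat_lit 9) (BT.leaf [(nat_lit 3), (nat_lit 5)]) (BT.leaf []))))) (BT.node (nat_lit 15) (BT.node (nat_lit 12) (BT.node (nat_lit 11) (BT.leaf [(nat_lit 4)]) (BT.leaf [(nat_lit 4)]))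 (BT.node (nat_lit 13) (BT.leaf [(nat_lit 4)]) (BT.node (nat_lit 14) (BT.leaf [(nat_lit 4), (nat_lit 5), (nat_lit 5)]) (BT.leaf [])))) (BT.node (nat_lit 18) (BT.node (nat_lit 16) (BT.leaf [(nat_lit 5)]) (BT.node (nat_lit 17) (BT.leaf [(nat_lit 5)]) (BT.leaf [(nat_lit 5)]))) (BT.node (nat_lit 19) (BT.leaf [(nat_lit 5)]) (BT.node (nat_lit 20) (BT.leaf [(nat_lit 5)]) (BT.leaf [])))))),
  [⟨(nat_lit 0), [(nat_lit 0)], [(nat_lit 0), (nat_lit 0), (nat_lit 5)]⟩,
  ⟨(nat_lit 0), [(nat_lit 4)], [(nat_lit 4)]⟩,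
  ⟨(nat_lit 0), [(nat_lit 1)], [(nat_lit 1), (nat_lit 1), (nat_lit 2), (nat_lit 2), (nat_lit 5)]⟩,
  ⟨(nat_lit 0), [(nat_lit 2)], [(nat_lit 2), (nat_lit 5)]⟩,
  ⟨(nat_lit 1), [(nat_lit 2)], [(nat_lit 2), (nat_lit 2), (nat_lit 5)]⟩,
  ⟨(nat_lit 1), [(nat_lit 0)], [(nat_lit 0), (nat_lit 2), (nat_lit 2), (nat_lit 4)]⟩,
  ⟨(nat_lit 1), [(nat_lit 5)], [(nat_lit 5), (nat_lit 5)]⟩,
  ⟨(nat_lit 1), [(nat_lit 4)], [(nat_lit 4), (nat_lit 4), (nat_lit 5)]⟩,
  ⟨(nat_lit 1), [(nat_lit 3)], [(nat_lit 3), (nat_lit 4), (nat_lit 5)]⟩,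
  ⟨(nat_lit 1), [(nat_lit 1)], [(nat_lit 1), (nat_lit 1), (nat_lit 4), (nat_lit 5), (nat_lit 5)]⟩,
  ⟨(nat_lit 0), [(nat_lit 3)], [(nat_lit 3), (nat_lit 3), (nat_lit 4)]⟩,
  ⟨(nat_lit 2), [(nat_lit 4)], [(nat_lit 2), (nat_lit 2), (nat_lit 3), (nat_lit 3)]⟩,
  ⟨(nat_lit 2), [(nat_lit 0)], [(nat_lit 0), (nat_lit 3), (nat_lit 3), (nat_lit 4), (nat_lit 5), (nat_lit 5)]⟩]⟩

noncomputable def Xx3_0 : List Test := [⟨(nat_lit 0), [(nat_lit 2)], [(nat_lit 0), (nat_lit 0), (nat_lit 0)], (nat_lit 0x101000000000000000000000000000000000000000000000000000000000000000000)⟩,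
  ⟨(nat_lit 1), [(nat_lit 0), (nat_lit 0), (nat_lit 0)], [], (nat_lit 0x101000000000000000000000000000000000000000100000000000000000000000000)⟩,
  ⟨(nat_lit 0), [(nat_lit 4)], [(nat_lit 2), (nat_lit 0)], (nat_lit 0x100010000000000000000000000000000000000000000000000000000000000000000)⟩,
  ⟨(nat_lit 0), [(nat_lit 4)], [(nat_lit 3), (nat_lit 0)], (nat_lit 0x200000000000200000000000000000000000000000000000000000000000000000000)⟩,
  ⟨(nat_lit 1), [(nat_lit 1), (nat_lit 2)], [(nat_lit 2), (nat_lit 1)], (nat_lit 0x200020000000000000201000000000000000000000000000000000000000000000000)⟩,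
  ⟨(nat_lit 0), [(nat_lit 3)], [(nat_lit 2), (nat_lit 0)], (nat_lit 0x100000100000100000000000000000000000000000000000000000000000000000000)⟩,
  ⟨(nat_lit 0), [(nat_lit 4)], [(nat_lit 1), (nat_lit 0)], (nat_lit 0x100000000000000000100000000000000000000000000000000000000000000000000)⟩,
  ⟨(nat_lit 0), [(nat_lit 4)], [(nat_lit 3), (nat_lit 2)], (nat_lit 0x200010002000000000000000000000000000000000000000000000000000000000000)⟩,
  ⟨(nat_lit 1), [(nat_lit 3), (nat_lit 2)], [(nat_lit 2), (nat_lit 3)], (nat_lit 0x200000001020000000000000000000000010000000000000000000000000000000000)⟩,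
  ⟨(nat_lit 0), [(nat_lit 3)], [(nat_lit 2), (nat_lit 1)], (nat_lit 0x200020001010000000200000000000000000000000000000000000000000000000000)⟩,
  ⟨(nat_lit 2), [(nat_lit 4), (nat_lit 5)], [(nat_lit 5), (nat_lit 4), (nat_lit 6)], (nat_lit 0x200000001000100000100000000000000000100000000000000000002000000000000)⟩,
  ⟨(nat_lit 2), [(nat_lit 7), (nat_lit 5)], [(nat_lit 5), (nat_lit 7)], (nat_lit 0x200010002000100000100010000000000000000000000000000000000000000000000)⟩,
  ⟨(nat_lit 2), [(nat_lit 8), (nat_lit 4)], [(nat_lit 4), (nat_lit 8), (nat_lit 6)], (nat_lit 0x200010200000000000200000001000000000000000000000000000002000000000000)⟩,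
  ⟨(nat_lit 0), [(nat_lit 3)], [(nat_lit 1), (nat_lit 1), (nat_lit 1)], (nat_lit 0x202000000000001000000000000000000000000000000000000000000000000000000)⟩,
  ⟨(nat_lit 2), [(nat_lit 9), (nat_lit 9), (nat_lit 9)], [], (nat_lit 0x202000000000001000000000000000000000001000000000000000000000000000000)⟩,
  ⟨(nat_lit 0), [(nat_lit 1), (nat_lit 1)], [(nat_lit 1), (nat_lit 0)], (nat_lit 0x200000000000002000000000000000001000000000000000000000000000000000000)⟩,
  ⟨(nat_lit 1), [(nat_lit 10), (nat_lit 10), (nat_lit 10)], [], (nat_lit 0x201020200000001000000000100000000000000000000000000000000000000000000)⟩,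
  ⟨(nat_lit 0), [(nat_lit 3)], [(nat_lit 1), (nat_lit 0)], (nat_lit 0x200020001000200010100010001000000000000000000000000000000000000000000)⟩,
  ⟨(nat_lit 3), [(nat_lit 11), (nat_lit 12)], [(nat_lit 12), (nat_lit 11)], (nat_lit 0x201010101000000010100020002000200000200000000000000000000000000000000)⟩]

noncomputable def cx3 : Cert := ⟨Px3, (nat_lit 0), Xx3_0,
  [],
  [(nat_lit 0),
  (nat_lit 0),
  (nat_lit 0x200000000000000000000000000010000000100020000000000000000000000000000),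
  (nat_lit 0),
  (nat_lit 0x100000000000000000000000000010000000100000000000000000000000000000000),
  (nat_lit 0x100000000000000000000000000000000000100000000000000000000000000000000)],
  (BT.node (nat_lit 10) (BT.node (nat_lit 5) (BT.node (nat_lit 2) (BT.node (nat_lit 1) (BT.leaf (nat_lit 7)) (BT.leaf (nat_lit 0))) (BT.node (nat_lit 3) (BT.leaf (nat_lit 11160261)) (BT.node (nat_lit 4) (BT.leaf (nat_lit 0)) (BT.leaf (nat_lit 56142))))) (BT.node (nat_lit 7) (BT.node (nat_lit 6) (BT.leaf (nat_lit 31886462)) (BT.leaf (nat_lit 647183180))) (BT.node (nat_lit 8) (BT.leaf (nat_lit 0)) (BT.node (nat_lit 9) (BT.leaf (nat_lit 1125333)) (BT.leaf (nat_lit 87688325)))))) (BT.node (nat_lit 15) (BT.node (nat_lit 12) (BT.node (nat_lit 11) (BT.leaf (nat_lit 357264)) (BT.leaf (nat_lit 1638))) (BT.node (nat_lit 13) (BT.leaf (nat_lit 1458)) (BT.node (nat_lit 14) (BT.leaf (nat_lit 259108767)) (BT.leaf (nat_lit 3188648))))) (BT.node (nat_lit 18) (BT.node (nat_lit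 16) (BT.leaf (nat_lit 27)) (BT.node (nat_lit 17) (BT.leaf (nat_lit 45198)) (BT.leaf (nat_lit 2205)))) (BT.node (nat_lit 19) (BT.leaf (nat_lit 540)) (BT.node (nat_lit 20) (BT.leaf (nat_lit 18)) (BT.leaf (nat_lit 2)))))))⟩

theorem okx3 : cx3.OK := Cert.ok_of_check (by decide) (by decide +kernel)

theorem lx3_0 : allFrom (lay Q3 V3) 0 9 = true := by decide +kernel

theorem lx3_9 : allFrom (lay Q3 V3) 9 8 = true := by decide +kernel

theorem lx3_17 : allFrom (lay Q3 V3) 17 11 = true := by decide +kernel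

theorem lx3_28 : allFrom (lay Q3 V3) 28 3 = true := by decide +kernel

theorem lx3_31 : allFrom (lay Q3 V3) 31 1 = true := by decide +kernel

theorem lx3 : ∀ j < 32, lay Q3 V3 j = true := by
  have h : ∀ j < 0, lay Q3 V3 j = true := by simp
  have h := forall_lt_add h (allFrom_iff.1 lx3_0)
  have h := forall_lt_add h (allFrom_iff.1 lx3_9)
  have h := forall_lt_add h (allFrom_iff.1 lx3_17)
  have h := forall_lt_add h (allFrom_iff.1 lx3_28)
  have h := forall_lt_add h (allFrom_iff.1 lx3_31)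
  exact h

theorem T3 : Tbl 5 9 133 P.mulR P.one (full 159201) ι (slp b V3 4) (tb Q3) :=
  tbl_lay (by decide +kernel) (by decide +kernel) (by decide +kernel) lx3

theorem hx3_0 : allFrom (relRow (eq' (tb Q3)) 25 Px3) 0 6 = true := by decide +kernel

theorem hx3 : ∀ j < 6, relRow (eq' (tb Q3)) 25 Px3 j = true := by
  have h : ∀ j < 0, relRow (eq' (tb Q3)) 25 Px3 j = true := by simp
  have h := forall_lt_add h (allFrom_iff.1 hx3_0)
  exact h

theorem px3_0 : allFrom (atNo (prAt (eq' (tb Q3)) 25 g3) Px3.prs) 0 12 = true := by decide +kernel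

theorem px3_12 : allFrom (atNo (prAt (eq' (tb Q3)) 25 g3) Px3.prs) 12 1 = true := by decide +kernel

theorem px3 : ∀ j < 13, atNo (prAt (eq' (tb Q3)) 25 g3) Px3.prs j = true := by
  have h : ∀ j < 0, atNo (prAt (eq' (tb Q3)) 25 g3) Px3.prs j = true := by simp
  have h := forall_lt_add h (allFrom_iff.1 px3_0)
  have h := forall_lt_add h (allFrom_iff.1 px3_12)
  exact h

theorem holdsx3 : Holds Px3 fun i => slp b V3 4 (25 + i) :=
  holds_top T3.eqv hx3 (lall_of_atNo (by decide +kernel) px3)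

theorem rw3 : rw' 80 Y3 a3 e3 h3 (tb Q3) = true := by decide +kernel

theorem u3 : allFrom (uAt Q3 25 6 (lapp a3 e3) U3) 0 (llen (lapp a3 e3)) = true := by decide +kernel

theorem pbd3 : PBd L 3 1 :=
  okx3.pbd holdsx3 (le_trans (by decide) (low (s := 9) (ch := ch3) T3 rw3 (by decide +kernel) (by decide +kernel)
    (by decide +kernel) (by decide +kernel) u3)) card_L (by decide) rfl rfl

noncomputable def Px5 : Dat := ⟨(nat_lit 5), (nat_lit 6), (nat_lit 10), (nat_lit 8), (nat_lit 29),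
  (BT.node (nat_lit 10) (BT.node (nat_lit 5) (BT.node (nat_lit 2) (BT.node (nat_lit 1) (BT.leaf []) (BT.leaf [(nat_lit 1), (nat_lit 2), (nat_lit 3), (nat_lit 4), (nat_lit 4), (nat_lit 4), (nat_lit 5), (nat_lit 5), (nat_lit 5)])) (BT.node (nat_lit 3) (BT.leaf []) (BT.node (nat_lit 4) (BT.leaf [(nat_lit 2), (nat_lit 3), (nat_lit 4), (nat_lit 4), (nat_lit 4), (nat_lit 4), (nat_lit 5), (nat_lit 5)]) (BT.leaf [(nat_lit 2), (nat_lit 5), (nat_lit 5), (nat_lit 5), (nat_lit 5)])))) (BT.node (nat_lit 7) (BT.node (nat_lit 6) (BT.leaf []) (BT.leaf [(nat_lit 3), (nat_lit 4), (nat_lit 4), (nat_lit 5), (nat_lit 5), (nat_lit 5), (nat_lit 5)])) (BT.node (nat_lit 8) (BT.leaf [(nat_lit 3), (nat_lit 5), (nat_lit 5), (nat_lit 5), (nat_lit 5)]) (BT.node (nat_lit 9) (BT.leaf [(nat_lit 3), (nat_lit 5), (nat_lit 5)]) (BT.leaf []))))) (BT.node (nat_lit 15) (BT.node (nat_lit 12) (BT.node (nat_lit 11) (BT.leaf [(nat_lit 4)]) (BT.leaf [(nat_lit 4), (nat_lit 5), (nat_lit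 5), (nat_lit 5), (nat_lit 5)])) (BT.node (nat_lit 13) (BT.leaf [(nat_lit 4)]) (BT.node (nat_lit 14) (BT.leaf [(nat_lit 4)]) (BT.leaf [])))) (BT.node (nat_lit 18) (BT.node (nat_lit 16) (BT.leaf [(nat_lit 5)]) (BT.node (nat_lit 17) (BT.leaf [(nat_lit 5)]) (BT.leaf [(nat_lit 5)]))) (BT.node (nat_lit 19) (BT.leaf [(nat_lit 5)]) (BT.node (nat_lit 20) (BT.leaf [(nat_lit 5)]) (BT.leaf [])))))),
  [⟨(nat_lit 0), [(nat_lit 4)], [(nat_lit 4), (nat_lit 4), (nat_lit 4), (nat_lit 4), (nat_lit 5)]⟩,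
  ⟨(nat_lit 0), [(nat_lit 0)], [(nat_lit 0)]⟩,
  ⟨(nat_lit 1), [(nat_lit 2)], [(nat_lit 2), (nat_lit 5)]⟩,
  ⟨(nat_lit 1), [(nat_lit 1)], [(nat_lit 1), (nat_lit 1), (nat_lit 1), (nat_lit 1), (nat_lit 2), (nat_lit 5), (nat_lit 5), (nat_lit 5)]⟩,
  ⟨(nat_lit 1), [(nat_lit 5)], [(nat_lit 5), (nat_lit 5), (nat_lit 5), (nat_lit 5)]⟩,
  ⟨(nat_lit 1), [(nat_lit 4)], [(nat_lit 4), (nat_lit 5), (nat_lit 5), (nat_lit 5), (nat_lit 5)]⟩,
  ⟨(nat_lit 0), [(nat_lit 1)], [(nat_lit 1), (nat_lit 1), (nat_lit 1), (nat_lit 1), (nat_lit 5)]⟩,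
  ⟨(nat_lit 1), [(nat_lit 0)], [(nat_lit 0), (nat_lit 0), (nat_lit 0), (nat_lit 0), (nat_lit 3), (nat_lit 3), (nat_lit 3), (nat_lit 4)]⟩]⟩

noncomputable def Xx5_0 : List Test := [⟨(nat_lit 1), [(nat_lit 0), (nat_lit 1)], [(nat_lit 1), (nat_lit 0)], (nat_lit 0xc000000000000004000000000003000000000000000000000000000000000000000000000)⟩,
  ⟨(nat_lit 0), [(nat_lit 4)], [(nat_lit 3), (nat_lit 2)], (nat_lit 0x8000080000000000000000000000000000000000000000000000000000000000000000000)⟩,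
  ⟨(nat_lit 0), [(nat_lit 4)], [(nat_lit 2), (nat_lit 0)], (nat_lit 0x10000080000000000000100000000000000000000000000000000000000000000000000000)⟩,
  ⟨(nat_lit 0), [(nat_lit 5)], [(nat_lit 2), (nat_lit 0)], (nat_lit 0x10000040400000000000000000000000000000000000000000000000000000000000000000)⟩,
  ⟨(nat_lit 0), [(nat_lit 3)], [(nat_lit 2), (nat_lit 2), (nat_lit 2), (nat_lit 2), (nat_lit 2)], (nat_lit 0x8020000000000000000000000000000000000000000000000000000000000000000000000)⟩,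
  ⟨(nat_lit 0), [(nat_lit 5)], [(nat_lit 1), (nat_lit 0)], (nat_lit 0x10000080401000000000000000000000000000000000000000000000000000000000000000)⟩,
  ⟨(nat_lit 0), [(nat_lit 3)], [(nat_lit 2), (nat_lit 1)], (nat_lit 0x10000000400402000000000000000000000000000000000000000000000000000000000000)⟩,
  ⟨(nat_lit 2), [(nat_lit 2), (nat_lit 3)], [(nat_lit 3), (nat_lit 2), (nat_lit 4), (nat_lit 4), (nat_lit 4), (nat_lit 4)], (nat_lit 0x10000000001003000000000000000000000000000003000000000000000000010000000000)⟩,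
  ⟨(nat_lit 2), [(nat_lit 5), (nat_lit 3)], [(nat_lit 3), (nat_lit 5), (nat_lit 4), (nat_lit 4), (nat_lit 4), (nat_lit 4)], (nat_lit 0xc000080000000000000000100c00000000000000000000000000000000000010000000000)⟩,
  ⟨(nat_lit 0), [(nat_lit 4)], [(nat_lit 1), (nat_lit 0)], (nat_lit 0x10000040100400010000100400000000000000000000000000000000000000000000000000)⟩,
  ⟨(nat_lit 1), [(nat_lit 6), (nat_lit 6), (nat_lit 6), (nat_lit 6), (nat_lit 6)], [], (nat_lit 0xc010000000000000000000000000000000000000000000030000000000000000000000000)⟩,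
  ⟨(nat_lit 0), [(nat_lit 3)], [(nat_lit 2), (nat_lit 0)], (nat_lit 0xc000040100400008000080300000000000000000000000000000000000000000000000000)⟩,
  ⟨(nat_lit 0), [(nat_lit 3), (nat_lit 3), (nat_lit 3), (nat_lit 3)], [(nat_lit 3), (nat_lit 0)], (nat_lit 0xc010000000000000030000000000000000000000000000000000000000000000000000000)⟩,
  ⟨(nat_lit 0), [(nat_lit 3)], [(nat_lit 1), (nat_lit 0)], (nat_lit 0x10030040001001010000040300c00000040000000000000000000000000000000000000000)⟩,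
  ⟨(nat_lit 0), [(nat_lit 2)], [(nat_lit 1), (nat_lit 0)], (nat_lit 0x100100c0300803010000100400400000000100000000000000000000000000000000000000)⟩,
  ⟨(nat_lit 0), [(nat_lit 2), (nat_lit 2), (nat_lit 2), (nat_lit 2)], [(nat_lit 2), (nat_lit 0)], (nat_lit 0x10040000000000000010000000000010000000000000000000000000000000000000000000)⟩,
  ⟨(nat_lit 0), [(nat_lit 1), (nat_lit 1), (nat_lit 1), (nat_lit 1)], [(nat_lit 1), (nat_lit 0)], (nat_lit 0x10040000000000000020000000000010000000001000000000000000000000000000000000)⟩,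
  ⟨(nat_lit 2), [(nat_lit 7), (nat_lit 7), (nat_lit 7), (nat_lit 7), (nat_lit 7)], [], (nat_lit 0xc02000000000000002000000000000c000000000000000000000300000000000000000000)⟩]

noncomputable def cx5 : Cert := ⟨Px5, (nat_lit 0), Xx5_0,
  [],
  [(nat_lit 0),
  (nat_lit 0),
  (nat_lit 0x10000000000000000000000000000000000000300003010000040000000000000000000000),
  (nat_lit 0x10000000000000000000000000000000000000300004004000000000000000000000000000),
  (nat_lit 0xc000000000000000000000000000000000000300002000000000000000000000000000000),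
  (nat_lit 0x10000000000000000000000000000000000000000004000000000000000000000000000000)],
  (BT.node (nat_lit 10) (BT.node (nat_lit 5) (BT.node (nat_lit 2) (BT.node (nat_lit 1) (BT.leaf (nat_lit 0x2315429bc47)) (BT.leaf (nat_lit 0))) (BT.node (nat_lit 3) (BT.leaf (nat_lit 29297500)) (BT.node (nat_lit 4) (BT.leaf (nat_lit 0)) (BT.leaf (nat_lit 0))))) (BT.node (nat_lit 7) (BT.node (nat_lit 6) (BT.leaf (nat_lit 0x401e8f7759)) (BT.leaf (nat_lit 0))) (BT.node (nat_lit 8) (BT.leaf (nat_lit 0x1720ced79)) (BT.node (nat_lit 9) (BT.leaf (nat_lit 1325910185)) (BT.leaf (nat_lit 0x746a53244)))))) (BT.node (nat_lit 15) (BT.node (nat_lit 12) (BT.node (nat_lit 11) (BT.leaf (nat_lit 154303178)) (BT.leaf (nat_lit 106831645))) (BT.node (nat_lit 13) (BT.leaf (nat_lit 201178135)) (BT.node (nat_lit 14) (BT.leaf (nat_lit 45)) (BT.leaf (nat_lit 732422500))))) (BT.node (nat_lit 18) (BT.node (nat_lit 16) (BT.leaf (nat_lit 54700100)) (BT.node (nat_lit 17) (BT.leaf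 (nat_lit 37625)) (BT.leaf (nat_lit 3635)))) (BT.node (nat_lit 19) (BT.leaf (nat_lit 135)) (BT.node (nat_lit 20) (BT.leaf (nat_lit 10)) (BT.leaf (nat_lit 1250)))))))⟩

theorem okx5 : cx5.OK := Cert.ok_of_check (by decide) (by decide +kernel)

theorem lx5_0 : allFrom (lay Q5 V5) 0 5 = true := by decide +kernel

theorem lx5_5 : allFrom (lay Q5 V5) 5 9 = true := by decide +kernel

theorem lx5 : ∀ j < 14, lay Q5 V5 j = true := by
  have h : ∀ j < 0, lay Q5 V5 j = true := by simp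
  have h := forall_lt_add h (allFrom_iff.1 lx5_0)
  have h := forall_lt_add h (allFrom_iff.1 lx5_5)
  exact h

theorem T5 : Tbl 5 9 133 P.mulR P.one (full 159201) ι (slp b V5 4) (tb Q5) :=
  tbl_lay (by decide +kernel) (by decide +kernel) (by decide +kernel) lx5

theorem hx5_0 : allFrom (relRow (eq' (tb Q5)) 10 Px5) 0 4 = true := by decide +kernel

theorem hx5_4 : allFrom (relRow (eq' (tb Q5)) 10 Px5) 4 2 = true := by decide +kernel

theorem hx5 : ∀ j < 6, relRow (eq' (tb Q5)) 10 Px5 j = true := by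
  have h : ∀ j < 0, relRow (eq' (tb Q5)) 10 Px5 j = true := by simp
  have h := forall_lt_add h (allFrom_iff.1 hx5_0)
  have h := forall_lt_add h (allFrom_iff.1 hx5_4)
  exact h

theorem px5_0 : allFrom (atNo (prAt (eq' (tb Q5)) 10 g5) Px5.prs) 0 8 = true := by decide +kernel

theorem px5 : ∀ j < 8, atNo (prAt (eq' (tb Q5)) 10 g5) Px5.prs j = true := by
  have h : ∀ j < 0, atNo (prAt (eq' (tb Q5)) 10 g5) Px5.prs j = true := by simp
  have h := forall_lt_add h (allFrom_iff.1 px5_0)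
  exact h

theorem holdsx5 : Holds Px5 fun i => slp b V5 4 (10 + i) :=
  holds_top T5.eqv hx5 (lall_of_atNo (by decide +kernel) px5)

theorem rw5 : rw' 124 Y5 a5 e5 h5 (tb Q5) = true := by decide +kernel

theorem u5 : allFrom (uAt Q5 10 6 (lapp a5 e5) U5) 0 (llen (lapp a5 e5)) = true := by decide +kernel

theorem pbd5 : PBd L 5 1 :=
  okx5.pbd holdsx5 (le_trans (by decide) (low (s := 125) (ch := ch5) T5 rw5 (by decide +kernel) (by decide +kernel)
    (by decide +kernel) (by decide +kernel) u5)) card_L (by decide) rfl rfl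


end CF.Schur.HN
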