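import Cfsg.Agent.Schur.HNP2
import Cfsg.Agent.Schur.HNP3

/-! The Schur multiplier of HN. -/

set_option autoImplicit false
set_option maxRecDepth 1000000
set_option maxHeartbeats 0
set_option Elab.async false

namespace CF.Schur.HN

open CF.Comp CF.Schur.Pc Cfsg CF.Dce CF.Comp.HN

theorem schur : HasCyclicSchurMultiplier Spor.HN 1 :=
  HasSchur.congr_left (trivial_of_mult_le (card_mult_le (b := 19) (k := 14) card_L [(2, 1), (3, 1), (5, 1)]
    (by decide +kernel) (by
      simp only [List.mem_cons, List.not_mem_nil, or_false, forall_eq_or_imp, forall_eq]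
      exact ⟨⟨by decide, pbd2⟩, ⟨by decide, pbd3⟩, ⟨by decide, pbd5⟩⟩))) eT.symm

end CF.Schur.HN
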