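import Cfsg.Agent.Schur.Cl
import Cfsg.Agent.Schur.O73D

/-! The Schur multiplier of O73. -/

set_option autoImplicit false
set_option maxRecDepth 1000000
set_option maxHeartbeats 0
set_option Elab.async false

namespace CF.Schur.O73

open CF.Comp CF.Schur.Pc Cfsg

theorem linU_a : linAll (tabP 3) 351 7 UV UA U0 UCs 2 = true := by decide +kernel
theorem linU : LinOK (tabP 3) 351 7 2 UV UA U0 :=
  ⟨⟨Uσ, by decide +kernel⟩, by decide +kernel, by decide +kernel, rfl,
    UCs, by decide +kernel, rfl, linAll_iff.1 linU_a⟩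
theorem chU : ChainGe U0 U1 351 9 2 UW UC 4585351680 :=
  ⟨rfl, by decide, by decide, slp_of_slpOK (by decide +kernel), by decide +kernel, by decide +kernel,
    by decide +kernel⟩
theorem memU : allFrom (omAt (tabP 3) 7 UB UA UX) 0 2 = true := by decide +kernel

variable {G Ω : Type*} [Group G] [MulAction G Ω] {D : CF.Comp.Dom Ω 351} {f : ℕ → G} {H : Subgroup G} {bs : List ℕ}
  [Finite H]

noncomputable def Wx2 : List (List Nat) := [[(nat_lit 7), (nat_lit 16), (nat_lit 5), (nat_lit 13), (nat_lit 11), (nat_lit 14), (nat_lit 23), (nat_lit 13), (nat_lit 17)],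
  [(nat_lit 1), (nat_lit 6), (nat_lit 1), (nat_lit 17), (nat_lit 10), (nat_lit 5), (nat_lit 12), (nat_lit 10), (nat_lit 10), (nat_lit 20), (nat_lit 14), (nat_lit 19), (nat_lit 24), (nat_lit 25)],
  [(nat_lit 3), (nat_lit 9), (nat_lit 2), (nat_lit 13), (nat_lit 10), (nat_lit 5), (nat_lit 11), (nat_lit 9), (nat_lit 17), (nat_lit 14), (nat_lit 23), (nat_lit 25)],
  [(nat_lit 16), (nat_lit 12), (nat_lit 2), (nat_lit 16), (nat_lit 9), (nat_lit 5), (nat_lit 11), (nat_lit 13), (nat_lit 20), (nat_lit 17), (nat_lit 24)],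
  [(nat_lit 2), (nat_lit 8), (nat_lit 1), (nat_lit 16), (nat_lit 10), (nat_lit 5), (nat_lit 10), (nat_lit 10), (nat_lit 20), (nat_lit 15), (nat_lit 13), (nat_lit 20), (nat_lit 17), (nat_lit 23), (nat_lit 25)],
  [(nat_lit 3), (nat_lit 9), (nat_lit 2), (nat_lit 10), (nat_lit 8), (nat_lit 5), (nat_lit 11), (nat_lit 9), (nat_lit 9), (nat_lit 16), (nat_lit 16), (nat_lit 13), (nat_lit 24), (nat_lit 25)],
  [(nat_lit 17), (nat_lit 2), (nat_lit 12), (nat_lit 9), (nat_lit 5), (nat_lit 9), (nat_lit 11), (nat_lit 9), (nat_lit 13), (nat_lit 19), (nat_lit 13), (nat_lit 20), (nat_lit 17), (nat_lit 23)],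
  [(nat_lit 7), (nat_lit 1), (nat_lit 1), (nat_lit 12), (nat_lit 5), (nat_lit 7), (nat_lit 10), (nat_lit 17), (nat_lit 13), (nat_lit 17), (nat_lit 25)],
  [(nat_lit 3), (nat_lit 9), (nat_lit 2), (nat_lit 5), (nat_lit 16), (nat_lit 5), (nat_lit 10), (nat_lit 13), (nat_lit 19), (nat_lit 13), (nat_lit 20), (nat_lit 17)],
  [(nat_lit 14), (nat_lit 9), (nat_lit 3), (nat_lit 10), (nat_lit 5), (nat_lit 7), (nat_lit 11), (nat_lit 9), (nat_lit 13), (nat_lit 17), (nat_lit 13), (nat_lit 24)],
  [(nat_lit 6), (nat_lit 6), (nat_lit 1), (nat_lit 16), (nat_lit 8), (nat_lit 11), (nat_lit 10), (nat_lit 16), (nat_lit 16), (nat_lit 13), (nat_lit 24), (nat_lit 25)],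
  [(nat_lit 16), (nat_lit 12), (nat_lit 2), (nat_lit 13), (nat_lit 5), (nat_lit 7), (nat_lit 10), (nat_lit 13), (nat_lit 12), (nat_lit 9), (nat_lit 13), (nat_lit 20), (nat_lit 14), (nat_lit 19), (nat_lit 24), (nat_lit 25)]]

theorem qx2_0 : allFrom (preRow (lapp U0 U1) Nx2 Wx2 351 9) 0 12 = true := by decide +kernel

theorem qx2 : ∀ j < 12, preRow (lapp U0 U1) Nx2 Wx2 351 9 j = true := by
  have h : ∀ j < 0, preRow (lapp U0 U1) Nx2 Wx2 351 9 j = true := by simp
  have h := forall_lt_add h (allFrom_iff.1 qx2_0)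
  exact h

theorem wx2 : wfAll Nx2 351 = true := by decide +kernel

noncomputable def Px2 : Dat := ⟨(nat_lit 2), (nat_lit 9), (nat_lit 10), (nat_lit 17), (nat_lit 62),
  (BT.node (nat_lit 22) (BT.node (nat_lit 11) (BT.node (nat_lit 5) (BT.node (nat_lit 2) (BT.node (nat_lit 1) (BT.leaf []) (BT.leaf [(nat_lit 1), (nat_lit 6)])) (BT.node (nat_lit 3) (BT.leaf []) (BT.node (nat_lit 4) (BT.leaf [(nat_lit 2)]) (BT.leaf [(nat_lit 2), (nat_lit 4)])))) (BT.node (nat_lit 8) (BT.node (nat_lit 6) (BT.leaf []) (BT.node (nat_lit 7) (BT.leaf [(nat_lit 3)]) (BT.leaf [(nat_lit 3), (nat_lit 7)]))) (BT.node (nat_lit 9) (BT.leaf [(nat_lit 3), (nat_lit 5)]) (BT.node (nat_lit 10) (BT.leaf []) (BT.leaf [(nat_lit 4)]))))) (BT.node (nat_lit 16) (BT.node (nat_lit 13) (BT.node (nat_lit 12) (BT.leaf [(nat_lit 4), (nat_lit 8)]) (BT.leaf [(nat_lit 4), (nat_lit 8)])) (BT.node (nat_lit 14) (BT.leaf [(nat_lit 4), (nat_lit 7)]) (BT.node (nat_lit 15) (BT.leaf [(nat_lit 8)]) (BT.leaf [(nat_lit 5)])))) (BT.node (nat_lit 19) (BT.node (nat_lit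 17) (BT.leaf [(nat_lit 5), (nat_lit 7)]) (BT.node (nat_lit 18) (BT.leaf [(nat_lit 5)]) (BT.leaf [(nat_lit 5)]))) (BT.node (nat_lit 20) (BT.leaf [(nat_lit 5), (nat_lit 8)]) (BT.node (nat_lit 21) (BT.leaf []) (BT.leaf [(nat_lit 6)])))))) (BT.node (nat_lit 33) (BT.node (nat_lit 27) (BT.node (nat_lit 24) (BT.node (nat_lit 23) (BT.leaf [(nat_lit 6)]) (BT.leaf [(nat_lit 6)])) (BT.node (nat_lit 25) (BT.leaf [(nat_lit 6)]) (BT.node (nat_lit 26) (BT.leaf [(nat_lit 6)]) (BT.leaf [(nat_lit 6)])))) (BT.node (nat_lit 30) (BT.node (nat_lit 28) (BT.leaf []) (BT.node (nat_lit 29) (BT.leaf [(nat_lit 7)]) (BT.leaf [(nat_lit 7)]))) (BT.node (nat_lit 31) (BT.leaf [(nat_lit 7), (nat_lit 8)]) (BT.node (nat_lit 32) (BT.leaf [(nat_lit 7)]) (BT.leaf [(nat_lit 7)]))))) (BT.node (nat_lit 39) (BT.node (nat_lit 36) (BT.node (nat_lit 34) (BT.leaf [(nat_lit 7)]) (BT.node (nat_lit 35) (BT.leaf [(nat_lit 7)]) (BT.leaf []))) (BT.node (nat_lit 37) (BT.leaf [(nat_lit 8)]) (BT.node (nat_lit 38) (BT.leaf [(nat_lit 8)]) (BT.leaf [(nat_lit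 8)])))) (BT.node (nat_lit 42) (BT.node (nat_lit 40) (BT.leaf [(nat_lit 8)]) (BT.node (nat_lit 41) (BT.leaf [(nat_lit 8)]) (BT.leaf [(nat_lit 8)]))) (BT.node (nat_lit 43) (BT.leaf [(nat_lit 8)]) (BT.node (nat_lit 44) (BT.leaf [(nat_lit 8)]) (BT.leaf []))))))),
  [⟨(nat_lit 0), [(nat_lit 7)], [(nat_lit 6)]⟩,
  ⟨(nat_lit 1), [(nat_lit 0)], [(nat_lit 6), (nat_lit 8)]⟩,
  ⟨(nat_lit 0), [(nat_lit 6)], [(nat_lit 7), (nat_lit 8)]⟩,
  ⟨(nat_lit 0), [(nat_lit 8)], [(nat_lit 6), (nat_lit 7)]⟩,
  ⟨(nat_lit 1), [(nat_lit 6)], [(nat_lit 0), (nat_lit 6), (nat_lit 8)]⟩,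
  ⟨(nat_lit 2), [(nat_lit 2)], [(nat_lit 0), (nat_lit 5), (nat_lit 8)]⟩,
  ⟨(nat_lit 0), [(nat_lit 0)], [(nat_lit 3), (nat_lit 5), (nat_lit 8)]⟩,
  ⟨(nat_lit 0), [(nat_lit 3)], [(nat_lit 0), (nat_lit 6), (nat_lit 7)]⟩,
  ⟨(nat_lit 0), [(nat_lit 5)], [(nat_lit 0), (nat_lit 3), (nat_lit 8)]⟩,
  ⟨(nat_lit 1), [(nat_lit 3)], [(nat_lit 3)]⟩,
  ⟨(nat_lit 1), [(nat_lit 4)], [(nat_lit 0), (nat_lit 4), (nat_lit 8)]⟩,
  ⟨(nat_lit 1), [(nat_lit 8)], [(nat_lit 8)]⟩,
  ⟨(nat_lit 1), [(nat_lit 2)], [(nat_lit 0), (nat_lit 2), (nat_lit 6), (nat_lit 8)]⟩,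
  ⟨(nat_lit 2), [(nat_lit 5)], [(nat_lit 0), (nat_lit 2), (nat_lit 5), (nat_lit 8)]⟩,
  ⟨(nat_lit 1), [(nat_lit 5)], [(nat_lit 5)]⟩,
  ⟨(nat_lit 2), [(nat_lit 7)], [(nat_lit 4), (nat_lit 5), (nat_lit 6), (nat_lit 8)]⟩,
  ⟨(nat_lit 0), [(nat_lit 4)], [(nat_lit 0), (nat_lit 1), (nat_lit 5), (nat_lit 6)]⟩]⟩

noncomputable def Xx2_0 : List Test := [⟨(nat_lit 1), [(nat_lit 0), (nat_lit 0)], [], (nat_lit 0x300000000000000000000000030000000000000000000100000000000000000000000000000000000000000000000000000000000000000000000000000000000000000000000000000000000002)⟩,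
  ⟨(nat_lit 2), [(nat_lit 1), (nat_lit 1)], [], (nat_lit 0x30040000400000000000000000000000000000000000010000000000000000000000000000000000000000000000000000000000000000000c000000000000000000000000000000000000000800)⟩,
  ⟨(nat_lit 1), [(nat_lit 2), (nat_lit 2)], [], (nat_lit 0x300401000000000000000000010000000000000000000300000000000000000000000000000000000000000000000000000000000000000000000000000000000000000000000000000000200000)⟩,
  ⟨(nat_lit 1), [(nat_lit 3), (nat_lit 3)], [], (nat_lit 0x300c00000000000000000000010040000000000000000100000000000000000000000000000000000000000000000000000000000000000000000000000000000000000000000000000080000000)⟩,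
  ⟨(nat_lit 0), [(nat_lit 3)], [(nat_lit 0), (nat_lit 0)], (nat_lit 0x200000000000000000000000000000000000000000000000000000000000000000000000000000000000000000000000008000000000000000000000000000000000000000000000000000000000)⟩,
  ⟨(nat_lit 0), [(nat_lit 4)], [(nat_lit 4), (nat_lit 4)], (nat_lit 0x100000000000040000000000000000000000000000000000000000000000000000000000000000000000000000000000000000000000000000000000000000000000000000000000000000000000)⟩,
  ⟨(nat_lit 0), [(nat_lit 1)], [(nat_lit 0), (nat_lit 0)], (nat_lit 0x200000000000000000000000000000000000000000000100000000000000100000000000000000000000000000000000000000000000002000000000000000000000000000000000000000000000)⟩,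
  ⟨(nat_lit 0), [(nat_lit 3)], [(nat_lit 1), (nat_lit 1)], (nat_lit 0x200000000000000000000000010000000000000010000000000000000000000000000000000000000000000000000002000000000000000000000000000000000000000000000000000000000000)⟩,
  ⟨(nat_lit 0), [(nat_lit 3)], [(nat_lit 2), (nat_lit 2)], (nat_lit 0x200000000000000000000000000000000000000000000000000000000000000400000010000000000000000000000800000000000000000000000000000000000000000000000000000000000000)⟩,
  ⟨(nat_lit 0), [(nat_lit 4)], [(nat_lit 1), (nat_lit 1)], (nat_lit 0x200400000000000000001000000000000000000000000000000000000000000000000000000000000000020000000000000000000000000000000000000000000000000000000000000000000000)⟩,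
  ⟨(nat_lit 0), [(nat_lit 4)], [(nat_lit 2), (nat_lit 2)], (nat_lit 0x200400000000000000400000000000000000000000000000000000000000000000000000000000000008000000000000000000000000000000000000000000000000000000000000000000000000)⟩,
  ⟨(nat_lit 0), [(nat_lit 4)], [(nat_lit 3), (nat_lit 3)], (nat_lit 0x200000000000000000000000010000000001000000000000000000000000000000000000000000002000000000000000000000000000000000000000000000000000000000000000000000000000)⟩,
  ⟨(nat_lit 2), [(nat_lit 4), (nat_lit 4)], [], (nat_lit 0x200400004000000000000004000000000000000000000000000000000000100000000000000000000000000000000000000000000000000004000000000000000000000000000000020000000000)⟩,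
  ⟨(nat_lit 3), [(nat_lit 5), (nat_lit 5)], [], (nat_lit 0x300400000010000000000004000000000000000000000000000000000000000400000000000100000000000000000000000030000000000004000000000000000000000000000008000000000000)⟩,
  ⟨(nat_lit 1), [(nat_lit 6), (nat_lit 6)], [], (nat_lit 0x30040000001000010000000000000000000000000000000000000000000000040000400000000000000000000010000000000000000000000c000000000000000000000000002000000000000000)⟩,
  ⟨(nat_lit 1), [(nat_lit 7), (nat_lit 7)], [], (nat_lit 0x300000000000000000000000010040000000000000040100000000000000100000000000000000000000000000300000000000000000000004000000000000000000000000800000000000000000)⟩,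
  ⟨(nat_lit 1), [(nat_lit 8), (nat_lit 8)], [], (nat_lit 0x300400000000000100000004000000000000000000000000000000000000000c00000000000000000000000000100000004000000000000004000000000000000000000200000000000000000000)⟩,
  ⟨(nat_lit 0), [(nat_lit 6)], [(nat_lit 4), (nat_lit 4)], (nat_lit 0x200000004000000000000000000000000000000000000000002000000000000000000000000000000000000000000000000000000000000000000000000000000000000000000000000000000000)⟩,
  ⟨(nat_lit 0), [(nat_lit 7)], [(nat_lit 4), (nat_lit 4)], (nat_lit 0x200001000000000000000000000000000800000000000000000000000000000000000000000000000000000000000000000000000000000000000000000000000000000000000000000000000000)⟩,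
  ⟨(nat_lit 0), [(nat_lit 2)], [(nat_lit 1), (nat_lit 1)], (nat_lit 0x200400000000000000000000000000000000000000000000000000000000000000000000000000400000010000000000000000080000000000000000000000000000000000000000000000000000)⟩,
  ⟨(nat_lit 2), [(nat_lit 9), (nat_lit 1)], [(nat_lit 1), (nat_lit 9)], (nat_lit 0x30000000000000030000000000000000000000000000000000000c00000000000000000000000000000000000000000000c000000000000000000000000000000000000000000000000000000000)⟩,
  ⟨(nat_lit 0), [(nat_lit 1)], [(nat_lit 1), (nat_lit 0)], (nat_lit 0x3000000000000000000000000000000000000000000003000000000000c0000000000000000000000000000000000000000000000000002000000000000000000000000000000000000000000000)⟩,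
  ⟨(nat_lit 0), [(nat_lit 3)], [(nat_lit 3), (nat_lit 2)], (nat_lit 0x300000000000000000000000000000000000000000000000000000000000000c0000c000000000000000000000000800000000000000000000000000000000000000000000000000000000000000)⟩,
  ⟨(nat_lit 0), [(nat_lit 5)], [(nat_lit 5), (nat_lit 1)], (nat_lit 0x300000000000000000000000030000300000000000000000000000000000000000000000080000000000000000000000000000000000000000000000000000000000000000000000000000000000)⟩,
  ⟨(nat_lit 0), [(nat_lit 5)], [(nat_lit 5), (nat_lit 4)], (nat_lit 0x300c00000030000000000000000000000000000000000000000000000000000002000000000000000000000000000000000000000000000000000000000000000000000000000000000000000000)⟩,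
  ⟨(nat_lit 2), [(nat_lit 10), (nat_lit 10)], [(nat_lit 11)], (nat_lit 0x30040000000004000000000400000000000000000000000000000000000000000000000000000000000000004000000000000000000000000400000000000000c020000000000000000000000000)⟩,
  ⟨(nat_lit 0), [(nat_lit 2)], [(nat_lit 2), (nat_lit 1)], (nat_lit 0x300c000000000c0000000000000000000000000000000000000000000000000000000000000000c0000c000000000000000000080000000000000000000000000000000000000000000000000000)⟩,
  ⟨(nat_lit 2), [(nat_lit 12), (nat_lit 12)], [], (nat_lit 0x200400004000000000400004000000000000000000000100000000010000100000000000000000000000000000000000000000000100000004000000000002000000000000000000000000000000)⟩,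
  ⟨(nat_lit 3), [(nat_lit 13), (nat_lit 13)], [], (nat_lit 0x200400000010000000400004000000000000000000000000000000000000000000000010000100000000000000000000000010000100000004000000000800000000000000000000000000000000)⟩,
  ⟨(nat_lit 0), [(nat_lit 3)], [(nat_lit 2), (nat_lit 0)], (nat_lit 0x100000000000000000000000000000000000000000000000000000000000000000000000000100000000000000000000000000000000000000000000000000000000000000000000000000000000)⟩,
  ⟨(nat_lit 0), [(nat_lit 4)], [(nat_lit 3), (nat_lit 0)], (nat_lit 0x100000000000000000000000000000000000000000040000000000000000000000000000000000000000000000000000000000000000000000000000000000000000000000000000000000000000)⟩,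
  ⟨(nat_lit 2), [(nat_lit 14), (nat_lit 10)], [(nat_lit 10), (nat_lit 14), (nat_lit 11)], (nat_lit 0x30000000003000000000000000000000000000000000000000000000000000000000000000010000000000000000000000000000000000000000000000000000c000000000000000000000000000)⟩,
  ⟨(nat_lit 0), [(nat_lit 6)], [(nat_lit 2), (nat_lit 1)], (nat_lit 0x300000000000000000000000000000000000000000000000003000000000000000000000000000000000000000000000000000000000000000000000000000000000000000000000000000000000)⟩,
  ⟨(nat_lit 0), [(nat_lit 6)], [(nat_lit 3), (nat_lit 2)], (nat_lit 0x300000000000000000000000000000000000000000000000c00000000000000000000000000000000000000000000000000000000000000000000000000000000000000000000000000000000000)⟩,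
  ⟨(nat_lit 0), [(nat_lit 4)], [(nat_lit 4), (nat_lit 3)], (nat_lit 0x300002000000000100000000030000000c00000000000000000000000000000000000000000000002000000000000000000000000000000000000000000000000000000000000000000000000000)⟩,
  ⟨(nat_lit 3), [(nat_lit 15), (nat_lit 15)], [], (nat_lit 0x300800004020040000000000030000000000000000000100401000000000000401000000000000400000000000000000000000000000000000000080000000000000000000000000000000000000)⟩,
  ⟨(nat_lit 1), [(nat_lit 16), (nat_lit 16)], [(nat_lit 3)], (nat_lit 0x300000000000000000000000000040100000000000000100400000000000100400000000040100c000000000000000000000000000004010040200000000000000000000000000000000c0000000)⟩,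
  ⟨(nat_lit 0), [(nat_lit 3)], [(nat_lit 1), (nat_lit 0)], (nat_lit 0x3000000000000000000000000000c0000000000000040000000004000000000000000000000000000000000000000000000000000000000000000000000000000000000000000000000000000000)⟩,
  ⟨(nat_lit 0), [(nat_lit 5)], [(nat_lit 2), (nat_lit 1)], (nat_lit 0x300c030000000c0000000000000000000c0000c000000000000000000000000003000000000000000000000000000000000000000000000000000000000000000000000000000000000000000000)⟩,
  ⟨(nat_lit 0), [(nat_lit 3)], [(nat_lit 2), (nat_lit 1)], (nat_lit 0x300c030000000c0000000000010000000c0000c000000000000000000000000003000000040000001000000000000000000000000000000000000000000000000000000000000000000000000000)⟩,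
  ⟨(nat_lit 1), [(nat_lit 16), (nat_lit 6)], [(nat_lit 6), (nat_lit 16)], (nat_lit 0x30000000c03000000000300c0300003000000000000000004000040000000000000040000c03000000000000c000000300c000000000000000000000000000000000000000000000000000000000)⟩,
  ⟨(nat_lit 1), [(nat_lit 8), (nat_lit 16)], [(nat_lit 16), (nat_lit 8), (nat_lit 3)], (nat_lit 0x300003000010000000001004000040100000000000000300c0000000000030000300c0000003000000000000000000010040000000000030000000000000000000000000000000000000c0000000)⟩]

noncomputable def cx2 : Cert := ⟨Px2, (nat_lit 1), Xx2_0,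
  [⟨(nat_lit 0x100000000000000000000000000000000000000000000000000000000000000000000000000000000000000000000000004000000000000000000000000000000000000000000000000000000000), (nat_lit 2), (nat_lit 768)⟩],
  [(nat_lit 0),
  (nat_lit 0),
  (nat_lit 0),
  (nat_lit 0),
  (nat_lit 0x100000000000000000000000000000000000000000000000000000000000000000000000000000000000000000000000000000040000000000000000000000000000000000000000000000000000),
  (nat_lit 0x100000000000000000000000000000000000000000000000000000000000000000000000000000000000000000000400000000000000000000000000000000000000000000000000000000000000),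
  (nat_lit 0x100000000000000000000000000000000000000000000000000000000000000000000000000000000000000000000000000000000000001000000000000000000000000000000000000000000000),
  (nat_lit 0x100000000000000000000000000000000000000000000000000000000000000000000000000000000000000000000001000000000000000000000000000000000000000000000000000000000000),
  (nat_lit 0x100000000000000000000000000000000000000000000000000000000000000000000000000000000000010000000000000000000000000000000000000000000000000000000000000000000000)],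
  (BT.node (nat_lit 22) (BT.node (nat_lit 11) (BT.node (nat_lit 5) (BT.node (nat_lit 2) (BT.node (nat_lit 1) (BT.leaf (nat_lit 0x4002ad808d)) (BT.leaf (nat_lit 0))) (BT.node (nat_lit 3) (BT.leaf (nat_lit 0x6738700209e)) (BT.node (nat_lit 4) (BT.leaf (nat_lit 537414154)) (BT.leaf (nat_lit 0))))) (BT.node (nat_lit 8) (BT.node (nat_lit 6) (BT.leaf (nat_lit 0x4042274086)) (BT.node (nat_lit 7) (BT.leaf (nat_lit 1)) (BT.leaf (nat_lit 0)))) (BT.node (nat_lit 9) (BT.leaf (nat_lit 0)) (BT.node (nat_lit 10) (BT.leaf (nat_lit 2147811476)) (BT.leaf (nat_lit 0x4144ada049)))))) (BT.node (nat_lit 16) (BT.node (nat_lit 13) (BT.node (nat_lit 12) (BT.leaf (nat_lit 0)) (BT.leaf (nat_lit 135266368))) (BT.node (nat_lit 14) (BT.leaf (nat_lit 0x3c5870aa4da)) (BT.node (nat_lit 15) (BT.leaf (nat_lit 1572874)) (BT.leaf (nat_lit 1073741824))))) (BT.node (nat_lit 19) (BT.node (nat_lit 17) (BT.leaf (nat_lit 0x20585ab245b)) (BT.node (nat_lit 18) (BT.leaf (nat_lit 42640015)) (BT.leaf (nat_lit 34250895)))) (BT.node (nat_lit 20) (BT.leaf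 (nat_lit 0x160296a0c7)) (BT.node (nat_lit 21) (BT.leaf (nat_lit 42639503)) (BT.leaf (nat_lit 0x4002a18003))))))) (BT.node (nat_lit 33) (BT.node (nat_lit 27) (BT.node (nat_lit 24) (BT.node (nat_lit 23) (BT.leaf (nat_lit 0x4002e18083)) (BT.leaf (nat_lit 0x4032a1e283))) (BT.node (nat_lit 25) (BT.leaf (nat_lit 0x4080080018)) (BT.node (nat_lit 26) (BT.leaf (nat_lit 0x200000000)) (BT.leaf (nat_lit 0x400000000))))) (BT.node (nat_lit 30) (BT.node (nat_lit 28) (BT.leaf (nat_lit 0x4002a18083)) (BT.node (nat_lit 29) (BT.leaf (nat_lit 2147483648)) (BT.leaf (nat_lit 0x4002a18181)))) (BT.node (nat_lit 31) (BT.leaf (nat_lit 0x9e801f2015)) (BT.node (nat_lit 32) (BT.leaf (nat_lit 0x4002a19081)) (BT.leaf (nat_lit 0x882898098)))))) (BT.node (nat_lit 39) (BT.node (nat_lit 36) (BT.node (nat_lit 34) (BT.leaf (nat_lit 0x4003a18081)) (BT.node (nat_lit 35) (BT.leaf (nat_lit 524312)) (BT.leaf (nat_lit 0x4002a18081)))) (BT.node (nat_lit 37) (BT.leaf (nat_lit 8324)) (BT.node (nat_lit 38) (BT.leaf (nat_lit 525322)) (BT.leaf (nat_lit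 526346))))) (BT.node (nat_lit 42) (BT.node (nat_lit 40) (BT.leaf (nat_lit 0x4080280019)) (BT.node (nat_lit 41) (BT.leaf (nat_lit 64)) (BT.leaf (nat_lit 34078730)))) (BT.node (nat_lit 43) (BT.leaf (nat_lit 262144)) (BT.node (nat_lit 44) (BT.leaf (nat_lit 524288)) (BT.leaf (nat_lit 524298))))))))⟩

theorem okx2 : cx2.OK := Cert.ok_of_check (by decide) (by decide +kernel)


noncomputable def Lx2 : List Lvl := [⟨(nat_lit 0), [[(nat_lit 3), (nat_lit 13), (nat_lit 17)],
  [(nat_lit 9)],
  [(nat_lit 13)],
  [(nat_lit 15)],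
  [(nat_lit 17)]], (nat_lit 1)⟩,
  ⟨(nat_lit 1), [[(nat_lit 1)],
  [(nat_lit 5), (nat_lit 17)],
  [(nat_lit 7), (nat_lit 15), (nat_lit 17)],
  [(nat_lit 11), (nat_lit 17)]], (nat_lit 1)⟩]


noncomputable def gx2 : List (List Nat) := [[(nat_lit 19)],
  [(nat_lit 21)],
  [(nat_lit 23)]]

theorem hx2_0 : allFrom (relRow (sameW Nx2 351 9) 0 Px2) 0 9 = true := by decide +kernel

theorem hx2 : ∀ j < 9, relRow (sameW Nx2 351 9) 0 Px2 j = true := by
  have h : ∀ j < 0, relRow (sameW Nx2 351 9) 0 Px2 j = true := by simp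
  have h := forall_lt_add h (allFrom_iff.1 hx2_0)
  exact h

theorem px2 : lall (prAt (sameW Nx2 351 9) 0 gx2) Px2.prs = true := by decide +kernel

theorem lx2 : lowOK Nx2 351 0 Px2 Lx2 = true := by decide +kernel

theorem pbdx2 (mdl : Mdl D (lapp U0 U1) f H bs) (card : Nat.card H = 4585351680) : PBd H 2 2 :=
  have h := (mdl.new (k := 9) (l := 12) (by decide) wx2 (by decide +kernel) (by decide +kernel) qx2)
  h.pbd (h.sameW (k := 9) (by decide)) okx2 (gs := gx2) hx2 px2 lx2 card (by decide) rfl rfl

noncomputable def Wx3 : List (List Nat) := [[(nat_lit 19), (nat_lit 8), (nat_lit 4), (nat_lit 16), (nat_lit 8), (nat_lit 15), (nat_lit 13), (nat_lit 13), (nat_lit 17), (nat_lit 23), (nat_lit 25)],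
  [(nat_lit 9), (nat_lit 2), (nat_lit 3), (nat_lit 16), (nat_lit 6), (nat_lit 14), (nat_lit 10), (nat_lit 15), (nat_lit 17), (nat_lit 13), (nat_lit 20), (nat_lit 17), (nat_lit 24)],
  [(nat_lit 4), (nat_lit 1), (nat_lit 1), (nat_lit 8), (nat_lit 14), (nat_lit 12), (nat_lit 9), (nat_lit 16), (nat_lit 14), (nat_lit 17)],
  [(nat_lit 20), (nat_lit 7), (nat_lit 2), (nat_lit 5), (nat_lit 7), (nat_lit 7), (nat_lit 9), (nat_lit 12), (nat_lit 9), (nat_lit 19), (nat_lit 15), (nat_lit 25)],
  [(nat_lit 10), (nat_lit 4), (nat_lit 6), (nat_lit 14), (nat_lit 5), (nat_lit 12), (nat_lit 9), (nat_lit 13), (nat_lit 13), (nat_lit 24)],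
  [(nat_lit 10), (nat_lit 5), (nat_lit 3), (nat_lit 19), (nat_lit 9), (nat_lit 5), (nat_lit 9), (nat_lit 9), (nat_lit 9), (nat_lit 20), (nat_lit 16), (nat_lit 13), (nat_lit 17), (nat_lit 23), (nat_lit 25)],
  [(nat_lit 5), (nat_lit 2), (nat_lit 3), (nat_lit 16), (nat_lit 7), (nat_lit 6), (nat_lit 12), (nat_lit 12), (nat_lit 16), (nat_lit 19), (nat_lit 15), (nat_lit 17), (nat_lit 23), (nat_lit 25)],
  [(nat_lit 11), (nat_lit 2), (nat_lit 17), (nat_lit 9), (nat_lit 7), (nat_lit 12), (nat_lit 13), (nat_lit 13), (nat_lit 20), (nat_lit 17), (nat_lit 25)],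
  [(nat_lit 12), (nat_lit 3), (nat_lit 2), (nat_lit 11), (nat_lit 8), (nat_lit 11), (nat_lit 11), (nat_lit 13), (nat_lit 19), (nat_lit 13), (nat_lit 20), (nat_lit 17)],
  [(nat_lit 1), (nat_lit 6), (nat_lit 2), (nat_lit 21), (nat_lit 8), (nat_lit 13), (nat_lit 10), (nat_lit 16), (nat_lit 19), (nat_lit 13), (nat_lit 19), (nat_lit 24)],
  [(nat_lit 5), (nat_lit 1), (nat_lit 10), (nat_lit 14), (nat_lit 5), (nat_lit 11), (nat_lit 11), (nat_lit 19), (nat_lit 13), (nat_lit 19), (nat_lit 23)]]

theorem qx3_0 : allFrom (preRow (lapp U0 U1) Nx3 Wx3 351 9) 0 11 = true := by decide +kernel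

theorem qx3 : ∀ j < 11, preRow (lapp U0 U1) Nx3 Wx3 351 9 j = true := by
  have h : ∀ j < 0, preRow (lapp U0 U1) Nx3 Wx3 351 9 j = true := by simp
  have h := forall_lt_add h (allFrom_iff.1 qx3_0)
  exact h

theorem wx3 : wfAll Nx3 351 = true := by decide +kernel

noncomputable def Px3 : Dat := ⟨(nat_lit 3), (nat_lit 9), (nat_lit 12), (nat_lit 10), (nat_lit 55),
  (BT.node (nat_lit 22) (BT.node (nat_lit 11) (BT.node (nat_lit 5) (BT.node (nat_lit 2) (BT.node (nat_lit 1) (BT.leaf []) (BT.leaf [(nat_lit 1), (nat_lit 3)])) (BT.node (nat_lit 3) (BT.leaf []) (BT.node (nat_lit 4) (BT.leaf [(nat_lit 2)]) (BT.leaf [(nat_lit 2), (nat_lit 4)])))) (BT.node (nat_lit 8) (BT.node (nat_lit 6) (BT.leaf []) (BT.node (nat_lit 7) (BT.leaf [(nat_lit 3)]) (BT.leaf [(nat_lit 3), (nat_lit 8), (nat_lit 8)]))) (BT.node (nat_lit 9) (BT.leaf [(nat_lit 3), (nat_lit 6), (nat_lit 6)]) (BT.node (nat_lit 10) (BT.leaf []) (BT.leaf [(nat_lit 4), (nat_lit 6), (nat_lit 8), (nat_lit 8)]))))) (BT.node (nat_lit 16) (BT.node (nat_lit 13) (BT.node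 (nat_lit 12) (BT.leaf [(nat_lit 4), (nat_lit 8), (nat_lit 8)]) (BT.leaf [(nat_lit 4), (nat_lit 5)])) (BT.node (nat_lit 14) (BT.leaf [(nat_lit 4), (nat_lit 8)]) (BT.node (nat_lit 15) (BT.leaf []) (BT.leaf [(nat_lit 5), (nat_lit 7)])))) (BT.node (nat_lit 19) (BT.node (nat_lit 17) (BT.leaf [(nat_lit 5)]) (BT.node (nat_lit 18) (BT.leaf [(nat_lit 5)]) (BT.leaf [(nat_lit 5), (nat_lit 8), (nat_lit 8)]))) (BT.node (nat_lit 20) (BT.leaf [(nat_lit 5)]) (BT.node (nat_lit 21) (BT.leaf []) (BT.leaf [(nat_lit 6)])))))) (BT.node (nat_lit 33) (BT.node (nat_lit 27) (BT.node (nat_lit 24) (BT.node (nat_lit 23) (BT.leaf [(nat_lit 6), (nat_lit 8), (nat_lit 8)]) (BT.leaf [(nat_lit 6), (nat_lit 7)])) (BT.node (nat_lit 25) (BT.leaf [(nat_lit 6)]) (BT.node (nat_lit 26) (BT.leaf [(nat_lit 6), (nat_lit 8)]) (BT.leaf [(nat_lit 6)])))) (BT.node (nat_lit 30) (BT.node (nat_lit 28) (BT.leaf []) (BT.node (nat_lit 29) (BT.leaf [(nat_lit 7)]) (BT.leaf [(nat_lit 7), (nat_lit 8)]))) (BT.node (nat_lit 31) (BT.leaf [(nat_lit 7)]) (BT.node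 (nat_lit 32) (BT.leaf [(nat_lit 7)]) (BT.leaf [(nat_lit 7)]))))) (BT.node (nat_lit 39) (BT.node (nat_lit 36) (BT.node (nat_lit 34) (BT.leaf [(nat_lit 7)]) (BT.node (nat_lit 35) (BT.leaf [(nat_lit 7)]) (BT.leaf []))) (BT.node (nat_lit 37) (BT.leaf [(nat_lit 8)]) (BT.node (nat_lit 38) (BT.leaf [(nat_lit 8)]) (BT.leaf [(nat_lit 8)])))) (BT.node (nat_lit 42) (BT.node (nat_lit 40) (BT.leaf [(nat_lit 8)]) (BT.node (nat_lit 41) (BT.leaf [(nat_lit 8)]) (BT.leaf [(nat_lit 8)]))) (BT.node (nat_lit 43) (BT.leaf [(nat_lit 8)]) (BT.node (nat_lit 44) (BT.leaf [(nat_lit 8)]) (BT.leaf []))))))),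
  [⟨(nat_lit 0), [(nat_lit 6)], [(nat_lit 6), (nat_lit 6)]⟩,
  ⟨(nat_lit 0), [(nat_lit 8)], [(nat_lit 8), (nat_lit 8)]⟩,
  ⟨(nat_lit 0), [(nat_lit 4)], [(nat_lit 4), (nat_lit 6), (nat_lit 8)]⟩,
  ⟨(nat_lit 1), [(nat_lit 3)], [(nat_lit 0), (nat_lit 3), (nat_lit 6), (nat_lit 7), (nat_lit 7)]⟩,
  ⟨(nat_lit 0), [(nat_lit 3)], [(nat_lit 3), (nat_lit 6), (nat_lit 6), (nat_lit 8)]⟩,
  ⟨(nat_lit 0), [(nat_lit 0)], [(nat_lit 0), (nat_lit 0), (nat_lit 3), (nat_lit 6), (nat_lit 7), (nat_lit 7)]⟩,
  ⟨(nat_lit 1), [(nat_lit 6)], [(nat_lit 6), (nat_lit 8), (nat_lit 8)]⟩,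
  ⟨(nat_lit 1), [(nat_lit 4)], [(nat_lit 2), (nat_lit 2), (nat_lit 4), (nat_lit 6), (nat_lit 6), (nat_lit 8)]⟩,
  ⟨(nat_lit 1), [(nat_lit 8)], [(nat_lit 7), (nat_lit 7), (nat_lit 8)]⟩,
  ⟨(nat_lit 0), [(nat_lit 1)], [(nat_lit 1), (nat_lit 1), (nat_lit 3), (nat_lit 3), (nat_lit 4), (nat_lit 6), (nat_lit 7), (nat_lit 7), (nat_lit 8)]⟩]⟩

noncomputable def Xx3_0 : List Test := [⟨(nat_lit 1), [(nat_lit 0), (nat_lit 0), (nat_lit 0)], [], (nat_lit 0x3000000000000000000000000000000000000000000000000000001000000000000000000000000000000000000000000000000000000000000000000000000000000000000000000000000000000000000003)⟩,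
  ⟨(nat_lit 1), [(nat_lit 1), (nat_lit 1), (nat_lit 1)], [], (nat_lit 0x3001000000000000000000000000000000000000000000000000000000000000000000000000000000000000000000000000000000000000000000000000000000000000000000000000000000000000003000)⟩,
  ⟨(nat_lit 0), [(nat_lit 2)], [(nat_lit 0), (nat_lit 0), (nat_lit 0)], (nat_lit 0x3000000000000000000000000000000000000000000000000000000000000000000000000000000000000000000000000000000000000000000000000000003000000000000000000000000000000000000000)⟩,
  ⟨(nat_lit 0), [(nat_lit 1)], [(nat_lit 0), (nat_lit 0), (nat_lit 0)], (nat_lit 0x3000000000000000000000000000000000000000000000000000000000000000000000000000000000000000000000000000000000001000000003000000000000003000000000000000000000000000000000)⟩,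
  ⟨(nat_lit 0), [(nat_lit 4)], [(nat_lit 2), (nat_lit 2), (nat_lit 2)], (nat_lit 0x3000000000000000000000000000000000000000000000000000000000000000000000000001000000003000000000000003000000000000000000000000000000000000000000000000000000000000000000)⟩,
  ⟨(nat_lit 0), [(nat_lit 5)], [(nat_lit 0), (nat_lit 0), (nat_lit 0)], (nat_lit 0x3000000000000000000000000000001000000000000000000003000000000000000000000000000000000000003000000000000000000000000000000000000000000000000000000000000000000000000000)⟩,
  ⟨(nat_lit 0), [(nat_lit 5)], [(nat_lit 2), (nat_lit 0)], (nat_lit 0x8000000000000000000000000000000000000000000008000000000000000000000000000000000000000000000000000000000000000000000000000000000000000000000000000000000000000000000000)⟩,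
  ⟨(nat_lit 0), [(nat_lit 6)], [(nat_lit 2), (nat_lit 0)], (nat_lit 0x1000000000000000000000000000000000000000000000000001000000000000000000000000000000000000000000000000000000000000000000000000000000000000000000000000000000000000000000)⟩,
  ⟨(nat_lit 0), [(nat_lit 6)], [(nat_lit 5), (nat_lit 2)], (nat_lit 0x8000000000000000000000000000000000008000000000000000000000000000000000000000000000000000000000000000000000000000000000000000000000000000000000000000000000000000000000)⟩,
  ⟨(nat_lit 0), [(nat_lit 6)], [(nat_lit 5), (nat_lit 4)], (nat_lit 0x8000000000008000000000000000000000000000000000000000000000000000000000000000000000000000000000000000000000000000000000000000000000000000000000000000000000000000000000)⟩,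
  ⟨(nat_lit 0), [(nat_lit 5)], [(nat_lit 2), (nat_lit 1)], (nat_lit 0x8000000000000000000000000000000000000000000000000000000000000000000000000000008000000000000000000000000000000000000000000000000000000000000000000000000000000000000000)⟩,
  ⟨(nat_lit 0), [(nat_lit 6)], [(nat_lit 5), (nat_lit 0)], (nat_lit 0x1000000000000000000000000000000001000000000000000000000000000000000000000000000000000000000000000000000000000000000000000000000000000000000000000000000000000000000000)⟩,
  ⟨(nat_lit 0), [(nat_lit 7)], [(nat_lit 4), (nat_lit 3)], (nat_lit 0x1000001000000000000000000000000000000000000000000000000000000000000000000000000000000000000000000000000000000000000000000000000000000000000000000000000000000000000000)⟩,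
  ⟨(nat_lit 0), [(nat_lit 8)], [(nat_lit 1), (nat_lit 0)], (nat_lit 0x8000000000000000008000000000000000000000000000000000000000000000000000000000000000000000000000000000000000000000000000000000000000000000000000000000000000000000000000)⟩,
  ⟨(nat_lit 0), [(nat_lit 8)], [(nat_lit 2), (nat_lit 1)], (nat_lit 0x8000000000000008000000000000000000000000000000000000000000000000000000000000000000000000000000000000000000000000000000000000000000000000000000000000000000000000000000)⟩,
  ⟨(nat_lit 0), [(nat_lit 3)], [(nat_lit 2), (nat_lit 0)], (nat_lit 0x2000000000000000000000000000000000000000000000000000000000000000000000002000000000000000000000000000000000000000000000000000000000000000000000000000000000000000000000)⟩,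
  ⟨(nat_lit 0), [(nat_lit 6)], [(nat_lit 4), (nat_lit 3)], (nat_lit 0x1000000001000000001000000000000000000000000000000000000000000000000000000000000000000000000000000000000000000000000000000000000000000000000000000000000000000000000000)⟩,
  ⟨(nat_lit 0), [(nat_lit 7)], [(nat_lit 1), (nat_lit 0)], (nat_lit 0x8000000000000000008000000001000000000000008000000000000000000000000000000000000000000000000000000000000000000000000000000000000000000000000000000000000000000000000000)⟩,
  ⟨(nat_lit 0), [(nat_lit 7)], [(nat_lit 2), (nat_lit 1)], (nat_lit 0x8000000000000008000008000000000000000008000000000000000000000000000000000000000000000000000000000000000000000000000000000000000000000000000000000000000000000000000000)⟩,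
  ⟨(nat_lit 0), [(nat_lit 6)], [(nat_lit 3), (nat_lit 2)], (nat_lit 0x8000000000000000000000000000000007000000008000000000000000000000000000000000000000000000000000000000000000000000000000000000000000000000000000000000000000000000000000)⟩,
  ⟨(nat_lit 0), [(nat_lit 2), (nat_lit 2)], [(nat_lit 2), (nat_lit 1)], (nat_lit 0x8000000000000000000000000000000000000000000000000000000000000000000000000008007000008000000008000006000000000000000000000006000000000000000000000000000000000000000000)⟩,
  ⟨(nat_lit 1), [(nat_lit 0), (nat_lit 2)], [(nat_lit 2), (nat_lit 0), (nat_lit 1)], (nat_lit 0x8000000001000000000000000000000000000000000000000000000000001000000000000000000000000000000000000000000000000000000000000000000000000000000000000000000000000000008000)⟩,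
  ⟨(nat_lit 0), [(nat_lit 6)], [(nat_lit 1), (nat_lit 0)], (nat_lit 0x8000000000000000007000000002000000000000000000000000000000000008000000000000000000000000000000000000000000000000000000000000000000000000000000000000000000000000000000)⟩,
  ⟨(nat_lit 0), [(nat_lit 2)], [(nat_lit 1), (nat_lit 1), (nat_lit 1)], (nat_lit 0x3002000000000002000000002000000000000000000000000000000000000000000000000000000000000000000001000000003000000000000000000003000000000000000000000000000000000000000000)⟩,
  ⟨(nat_lit 0), [(nat_lit 5)], [(nat_lit 3), (nat_lit 1)], (nat_lit 0x2000000000002000000000002000000000000000000000000000000000000000000000000000000000000000000000000000000000000000000000000000000000000000000000000000000000000000000000)⟩,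
  ⟨(nat_lit 0), [(nat_lit 6)], [(nat_lit 4), (nat_lit 2)], (nat_lit 0x8000008000008000000001000000000000008008000000000000000008000000000000000000000000000000000000000000000000000000000000000000000000000000000000000000000000000000000000)⟩,
  ⟨(nat_lit 0), [(nat_lit 5)], [(nat_lit 1), (nat_lit 0)], (nat_lit 0x8008007000000000008000000000000000000000008000008000000000000000000000000000000008000000000000000000000000000000000000000000000000000000000000000000000000000000000000)⟩,
  ⟨(nat_lit 0), [(nat_lit 4)], [(nat_lit 2), (nat_lit 1)], (nat_lit 0x8000000000002007000007000000000000000000000000000000000000000000000000000000008000000001000000000000000000000000000000000000000000000000000000000000000000000000000000)⟩,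
  ⟨(nat_lit 0), [(nat_lit 4)], [(nat_lit 2), (nat_lit 0)], (nat_lit 0x8000002000002000000007000000000000000000000000000000000001000000008000000000000000000000001000000000000000000000000000000000000000000000000000000000000000000000000000)⟩,
  ⟨(nat_lit 0), [(nat_lit 2)], [(nat_lit 1), (nat_lit 0)], (nat_lit 0x8001000003000000000000000000000000000000000000000000001000002000000000000000000000000000000000008000000001000001000000000000000000000000000000000000000000000000000000)⟩,
  ⟨(nat_lit 0), [(nat_lit 6)], [(nat_lit 2), (nat_lit 1)], (nat_lit 0x8000001000000007000007000000000000000008000000001000000000008000000000000000000000000000000000000000000000000000000000000000000000000000000000000000000000000000000000)⟩,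
  ⟨(nat_lit 2), [(nat_lit 3), (nat_lit 3), (nat_lit 3)], [], (nat_lit 0x3000000000000000000000000000002003000000003000000003001000000003000000003000000000000000000000000000000000000000000003000000000000000001000000000000000000003000000000)⟩,
  ⟨(nat_lit 0), [(nat_lit 4)], [(nat_lit 1), (nat_lit 0)], (nat_lit 0x8008000006000000000000007002000000000000000000000000000000000008000008000000000000000000000000008000000000000000000000000000000000000000000000000000000000000000000000)⟩,
  ⟨(nat_lit 0), [(nat_lit 3)], [(nat_lit 2), (nat_lit 1)], (nat_lit 0x7001000001000007000007000000000000000000000000000000000000007000000002000000000000000000000000001000000000000000000000000000000000000000000000000000000000000000000000)⟩,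
  ⟨(nat_lit 1), [(nat_lit 4), (nat_lit 5)], [(nat_lit 5), (nat_lit 4)], (nat_lit 0x7000002001000000001000000002000005000000007000000000000000000001000000004000000000000000000000000000000000000000000001000000000000000000000000000000000000000000000000)⟩,
  ⟨(nat_lit 2), [(nat_lit 6), (nat_lit 7)], [(nat_lit 7), (nat_lit 6), (nat_lit 8)], (nat_lit 0x8000002008000002000004000000000004000002000001000000000000000000002000000000000000000000000000000000000000000000000000000000000000000000000008000000000000000000000000)⟩,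
  ⟨(nat_lit 2), [(nat_lit 7), (nat_lit 3)], [(nat_lit 3), (nat_lit 7), (nat_lit 8)], (nat_lit 0x8000002000000000000000000001008000000000000007000000008000007000008000002000000000000000000000000000000001000007000000000000002000000000000008000000000000000000000000)⟩,
  ⟨(nat_lit 1), [(nat_lit 2), (nat_lit 9)], [(nat_lit 9), (nat_lit 2), (nat_lit 1), (nat_lit 1)], (nat_lit 0x7002007004000001001000003000000007000007000000000000000000000002000002000000000000000000000000002000001000000000000000000000000000000000000000000000000000000000007000)⟩,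
  ⟨(nat_lit 2), [(nat_lit 7), (nat_lit 7), (nat_lit 7)], [], (nat_lit 0x6002002005000002000004000000002004000001000005000000002000003000006000000002004000004000000000000006000000000000000000002000000000000000000000003000000000000000000000)⟩,
  ⟨(nat_lit 1), [(nat_lit 4), (nat_lit 9)], [(nat_lit 9), (nat_lit 4), (nat_lit 1), (nat_lit 1)], (nat_lit 0x8003007002000001001000002000000005000000007000000000000000002003000004000000000000000000000000008000000000000000001000000000000000000000000000000000000000000000007000)⟩,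
  ⟨(nat_lit 1), [(nat_lit 9), (nat_lit 9), (nat_lit 9)], [], (nat_lit 0x8000004008000003008000004000002003000003006000006000001000003006000006000000000000000000000001006000006000002000006000000000000001000000003000000000000000000000000000)⟩]

noncomputable def cx3 : Cert := ⟨Px3, (nat_lit 1), Xx3_0,
  [⟨(nat_lit 0x5000000000000000000000000000000000000000000000000000000000000000000000000000000000000000000000000000000000000000000000000000005000000000000000000000000000000000000000), (nat_lit 3), (nat_lit 567)⟩],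
  [(nat_lit 0),
  (nat_lit 0),
  (nat_lit 0),
  (nat_lit 0x1000000000000000000000000000000000000000000000000000000000000000000000000000000000000000000000000000000000000000000000000000000000001000000000000000000000000000000000),
  (nat_lit 0x1000000000000000000000000000000000000000000000000000000000000000000000000000000000000000000000000000000000000000000000000001000000000000000000000000000000000000000000),
  (nat_lit 0x1000000000000000000000000000000000000000000000000000000000000000000000000000000000000000000000000001000000000000000000000000000000000000000000000000000000000000000000),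
  (nat_lit 0x2000000000000000000000000000000000000000000000000000000000000000000000000000000000000000000000000000000000000002000000000000000000000000000000000000000000000000000000),
  (nat_lit 0x1000000000000000000000000000000000000000000000000000000000000000000000000000000000000000001000000000000000000000000000000000000000000000000000000000000000000000000000),
  (nat_lit 0x2000000000000000000000000000000000000000000000000000000000000000000000000000000000000000000000000000000000000000002000000000000000000000000000000000000000000000000000)],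
  (BT.node (nat_lit 22) (BT.node (nat_lit 11) (BT.node (nat_lit 5) (BT.node (nat_lit 2) (BT.node (nat_lit 1) (BT.leaf (nat_lit 0xd2a9fc43c82b7)) (BT.leaf (nat_lit 0))) (BT.node (nat_lit 3) (BT.leaf (nat_lit 0x3f4543af410676c2b)) (BT.node (nat_lit 4) (BT.leaf (nat_lit 1)) (BT.leaf (nat_lit 0))))) (BT.node (nat_lit 8) (BT.node (nat_lit 6) (BT.leaf (nat_lit 0x383d933fc4167e3a)) (BT.node (nat_lit 7) (BT.leaf (nat_lit 0x1637f067d609ffb)) (BT.leaf (nat_lit 0)))) (BT.node (nat_lit 9) (BT.leaf (nat_lit 0)) (BT.node (nat_lit 10) (BT.leaf (nat_lit 162)) (BT.leaf (nat_lit 0xb788a9a16e6b20f0)))))) (BT.node (nat_lit 16) (BT.node (nat_lit 13) (BT.node (nat_lit 12) (BT.leaf (nat_lit 0xdcf4054a0e8c1fa7)) (BT.leaf (nat_lit 0))) (BT.node (nat_lit 14) (BT.leaf (nat_lit 0x15198e8a9c8b48fa2)) (BT.node (nat_lit 15) (BT.leaf (nat_lit 0x148cb6c5c34)) (BT.leaf (nat_lit 0))))) (BT.node (nat_lit 19) (BT.node (nat_lit 17) (BT.leaf (nat_lit 0xf1fd94d68a3c1ad)) (BT.node (nat_lit 18) (BT.leaf (nat_lit 0x1cebffee150)) (BT.leaf (nat_lit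 0xa8f62e685720b122)))) (BT.node (nat_lit 20) (BT.leaf (nat_lit 177147)) (BT.node (nat_lit 21) (BT.leaf (nat_lit 486)) (BT.leaf (nat_lit 43046721))))))) (BT.node (nat_lit 33) (BT.node (nat_lit 27) (BT.node (nat_lit 24) (BT.node (nat_lit 23) (BT.leaf (nat_lit 0xa8e03514c772e426)) (BT.leaf (nat_lit 0x40bb9fe07fb2))) (BT.node (nat_lit 25) (BT.leaf (nat_lit 0x17a226cca7)) (BT.node (nat_lit 26) (BT.leaf (nat_lit 0x16055d958f4e8e8e1)) (BT.leaf (nat_lit 0xf1fb2001f6ebd35))))) (BT.node (nat_lit 30) (BT.node (nat_lit 28) (BT.leaf (nat_lit 6)) (BT.node (nat_lit 29) (BT.leaf (nat_lit 13122)) (BT.leaf (nat_lit 0x151ec4ca2a0e8ef16)))) (BT.node (nat_lit 31) (BT.leaf (nat_lit 2187)) (BT.node (nat_lit 32) (BT.leaf (nat_lit 3487847283)) (BT.leaf (nat_lit 0xf1fafb007e874ec)))))) (BT.node (nat_lit 39) (BT.node (nat_lit 36) (BT.node (nat_lit 34) (BT.leaf (nat_lit 19683)) (BT.node (nat_lit 35) (BT.leaf (nat_lit 1062882)) (BT.leaf (nat_lit 1458)))) (BT.node (nat_lit 37) (BT.leaf (nat_lit 4267471230)) (BT.node (nat_lit 38) (BT.leaf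 (nat_lit 0xc54657f7f5)) (BT.leaf (nat_lit 0xace6f344a38bcf1))))) (BT.node (nat_lit 42) (BT.node (nat_lit 40) (BT.leaf (nat_lit 4782969)) (BT.node (nat_lit 41) (BT.leaf (nat_lit 14348907)) (BT.leaf (nat_lit 59049)))) (BT.node (nat_lit 43) (BT.leaf (nat_lit 267846264)) (BT.node (nat_lit 44) (BT.leaf (nat_lit 3188646)) (BT.leaf (nat_lit 18))))))))⟩

theorem okx3 : cx3.OK := Cert.ok_of_check (by decide) (by decide +kernel)


noncomputable def Lx3 : List Lvl := [⟨(nat_lit 0), [[(nat_lit 5)],
  [(nat_lit 5)],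
  [(nat_lit 9)],
  [(nat_lit 9)],
  [(nat_lit 13)],
  [(nat_lit 13)],
  [(nat_lit 15)],
  [(nat_lit 15)],
  [(nat_lit 17)],
  [(nat_lit 17)]], (nat_lit 1)⟩,
  ⟨(nat_lit 1), [[(nat_lit 1), (nat_lit 5), (nat_lit 13), (nat_lit 13), (nat_lit 15), (nat_lit 17), (nat_lit 17)],
  [(nat_lit 1), (nat_lit 5), (nat_lit 13), (nat_lit 13), (nat_lit 15), (nat_lit 17), (nat_lit 17)],
  [(nat_lit 11), (nat_lit 13), (nat_lit 13), (nat_lit 15), (nat_lit 15), (nat_lit 17)],
  [(nat_lit 11), (nat_lit 13), (nat_lit 13), (nat_lit 15), (nat_lit 15), (nat_lit 17)]], (nat_lit 1)⟩,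
  ⟨(nat_lit 2), [[(nat_lit 3), (nat_lit 11), (nat_lit 15), (nat_lit 15)],
  [(nat_lit 3), (nat_lit 11), (nat_lit 15), (nat_lit 15)],
  [(nat_lit 7), (nat_lit 9), (nat_lit 9), (nat_lit 11), (nat_lit 11), (nat_lit 15), (nat_lit 15), (nat_lit 17), (nat_lit 17)],
  [(nat_lit 7), (nat_lit 9), (nat_lit 9), (nat_lit 11), (nat_lit 11), (nat_lit 15), (nat_lit 15), (nat_lit 17), (nat_lit 17)]], (nat_lit 1)⟩]


noncomputable def gx3 : List (List Nat) := [[(nat_lit 19)],
  [(nat_lit 21)]]

theorem hx3_0 : allFrom (relRow (sameW Nx3 351 9) 0 Px3) 0 9 = true := by decide +kernel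

theorem hx3 : ∀ j < 9, relRow (sameW Nx3 351 9) 0 Px3 j = true := by
  have h : ∀ j < 0, relRow (sameW Nx3 351 9) 0 Px3 j = true := by simp
  have h := forall_lt_add h (allFrom_iff.1 hx3_0)
  exact h

theorem px3 : lall (prAt (sameW Nx3 351 9) 0 gx3) Px3.prs = true := by decide +kernel

theorem lx3 : lowOK Nx3 351 0 Px3 Lx3 = true := by decide +kernel

theorem pbdx3 (mdl : Mdl D (lapp U0 U1) f H bs) (card : Nat.card H = 4585351680) : PBd H 3 3 :=
  have h := (mdl.new (k := 9) (l := 11) (by decide) wx3 (by decide +kernel) (by decide +kernel) qx3)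
  h.pbd (h.sameW (k := 9) (by decide)) okx3 (gs := gx3) hx3 px3 lx3 card (by decide) rfl rfl

theorem mult (mdl : Mdl D (lapp U0 U1) f H bs) (card : Nat.card H = 4585351680) : Nat.card (Mult H) ≤ 6 :=
  card_mult_le (b := 13) (k := 9) card [(2, 2), (3, 3)] (by decide +kernel) (by
    simp only [List.mem_cons, List.not_mem_nil, or_false, forall_eq_or_imp, forall_eq]
    exact ⟨⟨by decide, pbdx2 mdl card⟩, ⟨by decide, pbdx3 mdl card⟩⟩)

noncomputable def Wp : List (List Nat) := [[(nat_lit 17), (nat_lit 24), (nat_lit 25)],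
  [(nat_lit 19), (nat_lit 23), (nat_lit 25)],
  [(nat_lit 24), (nat_lit 25)],
  [(nat_lit 14), (nat_lit 15), (nat_lit 25)],
  [(nat_lit 10), (nat_lit 12), (nat_lit 9), (nat_lit 15), (nat_lit 20), (nat_lit 17)],
  [(nat_lit 9), (nat_lit 8), (nat_lit 11), (nat_lit 9), (nat_lit 9), (nat_lit 19), (nat_lit 13), (nat_lit 19), (nat_lit 25)],
  [(nat_lit 9), (nat_lit 5), (nat_lit 1), (nat_lit 7), (nat_lit 9), (nat_lit 5), (nat_lit 12), (nat_lit 10), (nat_lit 10), (nat_lit 16), (nat_lit 13), (nat_lit 24)]]

theorem qp_0 : allFrom (preRow (lapp U0 U1) Np Wp 351 9) 0 7 = true := by decide +kernel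

theorem qp : ∀ j < 7, preRow (lapp U0 U1) Np Wp 351 9 j = true := by
  have h : ∀ j < 0, preRow (lapp U0 U1) Np Wp 351 9 j = true := by simp
  have h := forall_lt_add h (allFrom_iff.1 qp_0)
  exact h

theorem wp : wfAll Np 351 = true := by decide +kernel

theorem ep_0_all : CF.Comp.Cov ep_0_F 4 5 0 := by
  have h := CF.Comp.Cov.zero ep_0_F 4
  have h := h.blk (b := 4) ep_0_k0_0 rfl
  have h := h.next (y := 1) rfl rfl
  have h := h.blk (b := 4) ep_0_k1_0 rfl
  have h := h.next (y := 2) rfl rfl
  have h := h.blk (b := 4) ep_0_k2_0 rfl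
  have h := h.next (y := 3) rfl rfl
  have h := h.blk (b := 4) ep_0_k3_0 rfl
  have h := h.next (y := 4) rfl rfl
  have h := h.blk (b := 4) ep_0_k4_0 rfl
  have h := h.next (y := 5) rfl rfl
  exact h

theorem ep_0 : Enum Rp_0 [] (gensW 3) 24 :=
  ⟨ep_0_cols, ep_0_ch, ep_0_L, ep_0_H, ep_0_pb.1, ep_0_e.get, [(nat_lit 0), (nat_lit 1), (nat_lit 3), (nat_lit 4), (nat_lit 5)], (nat_lit 5), (nat_lit 7), ep_0_rots, ep_0_hcs,
    (nat_lit 25), (nat_lit 5), (nat_lit 32), (nat_lit 16), (nat_lit 512), (nat_lit 2047), (nat_lit 8), (nat_lit 255), (nat_lit 12), (nat_lit 4095), (nat_lit 1), (nat_lit 4),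
    fun _ _ => rfl, fun _ => rfl, fun _ _ => rfl, by decide +kernel, ep_0_all.1⟩

theorem ep_1_all : CF.Comp.Cov ep_1_F 4 6 0 := by
  have h := CF.Comp.Cov.zero ep_1_F 4
  have h := h.blk (b := 4) ep_1_k0_0 rfl
  have h := h.next (y := 1) rfl rfl
  have h := h.blk (b := 4) ep_1_k1_0 rfl
  have h := h.next (y := 2) rfl rfl
  have h := h.blk (b := 4) ep_1_k2_0 rfl
  have h := h.next (y := 3) rfl rfl
  have h := h.blk (b := 4) ep_1_k3_0 rfl
  have h := h.next (y := 4) rfl rfl
  have h := h.blk (b := 4) ep_1_k4_0 rfl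
  have h := h.next (y := 5) rfl rfl
  have h := h.blk (b := 4) ep_1_k5_0 rfl
  have h := h.next (y := 6) rfl rfl
  exact h

theorem ep_1 : Enum Rp_1 (gensW 3) (gensW 4) 54 :=
  ⟨ep_1_cols, ep_1_ch, ep_1_L, ep_1_H, ep_1_pb.1, ep_1_e.get, [(nat_lit 0), (nat_lit 1), (nat_lit 3), (nat_lit 4), (nat_lit 5), (nat_lit 7)], (nat_lit 13), (nat_lit 7), ep_1_rots, ep_1_hcs,
    (nat_lit 55), (nat_lit 6), (nat_lit 64), (nat_lit 64), (nat_lit 4096), (nat_lit 4095), (nat_lit 8), (nat_lit 255), (nat_lit 16), (nat_lit 65535), (nat_lit 1), (nat_lit 4),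
    fun _ _ => rfl, fun _ => rfl, fun _ _ => rfl, by decide +kernel, ep_1_all.1⟩

theorem ep_2_all : CF.Comp.Cov ep_2_F 4 7 0 := by
  have h := CF.Comp.Cov.zero ep_2_F 4
  have h := h.blk (b := 4) ep_2_k0_0 rfl
  have h := h.next (y := 1) rfl rfl
  have h := h.blk (b := 4) ep_2_k1_0 rfl
  have h := h.next (y := 2) rfl rfl
  have h := h.blk (b := 4) ep_2_k2_0 rfl
  have h := h.next (y := 3) rfl rfl
  have h := h.blk (b := 4) ep_2_k3_0 rfl
  have h := h.next (y := 4) rfl rfl
  have h := h.blk (b := 4) ep_2_k4_0 rfl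
  have h := h.next (y := 5) rfl rfl
  have h := h.blk (b := 4) ep_2_k5_0 rfl
  have h := h.next (y := 6) rfl rfl
  have h := h.blk (b := 4) ep_2_k6_0 rfl
  have h := h.next (y := 7) rfl rfl
  exact h

theorem ep_2 : Enum Rp_2 (gensW 4) (gensW 5) 45 :=
  ⟨ep_2_cols, ep_2_ch, ep_2_L, ep_2_H, ep_2_pb.1, ep_2_e.get, [(nat_lit 0), (nat_lit 1), (nat_lit 3), (nat_lit 4), (nat_lit 5), (nat_lit 7), (nat_lit 9)], (nat_lit 29), (nat_lit 7), ep_2_rots, ep_2_hcs,
    (nat_lit 46), (nat_lit 7), (nat_lit 64), (nat_lit 64), (nat_lit 4096), (nat_lit 4095), (nat_lit 8), (nat_lit 255), (nat_lit 17), (nat_lit 131071), (nat_lit 1), (nat_lit 4),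
    fun _ _ => rfl, fun _ => rfl, fun _ _ => rfl, by decide +kernel, ep_2_all.1⟩

theorem ep_3_all : CF.Comp.Cov ep_3_F 4 8 0 := by
  have h := CF.Comp.Cov.zero ep_3_F 4
  have h := h.blk (b := 4) ep_3_k0_0 rfl
  have h := h.next (y := 1) rfl rfl
  have h := h.blk (b := 4) ep_3_k1_0 rfl
  have h := h.next (y := 2) rfl rfl
  have h := h.blk (b := 4) ep_3_k2_0 rfl
  have h := h.next (y := 3) rfl rfl
  have h := h.blk (b := 4) ep_3_k3_0 rfl
  have h := h.next (y := 4) rfl rfl
  have h := h.blk (b := 4) ep_3_k4_0 rfl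
  have h := h.next (y := 5) rfl rfl
  have h := h.blk (b := 4) ep_3_k5_0 rfl
  have h := h.next (y := 6) rfl rfl
  have h := h.blk (b := 4) ep_3_k6_0 rfl
  have h := h.next (y := 7) rfl rfl
  have h := h.blk (b := 4) ep_3_k7_0 rfl
  have h := h.next (y := 8) rfl rfl
  exact h

theorem ep_3 : Enum Rp_3 (gensW 5) (gensW 6) 224 :=
  ⟨ep_3_cols, ep_3_ch, ep_3_L, ep_3_H, ep_3_pb.1, ep_3_e.get, [(nat_lit 0), (nat_lit 1), (nat_lit 3), (nat_lit 4), (nat_lit 5), (nat_lit 7), (nat_lit 9), (nat_lit 11)], (nat_lit 61), (nat_lit 7), ep_3_rots, ep_3_hcs,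
    (nat_lit 225), (nat_lit 8), (nat_lit 256), (nat_lit 128), (nat_lit 32768), (nat_lit 16383), (nat_lit 8), (nat_lit 255), (nat_lit 22), (nat_lit 4194303), (nat_lit 1), (nat_lit 4),
    fun _ _ => rfl, fun _ => rfl, fun _ _ => rfl, by decide +kernel, ep_3_all.1⟩

theorem ep_4_all : CF.Comp.Cov ep_4_F 8 9 0 := by
  have h := CF.Comp.Cov.zero ep_4_F 8
  have h := h.blk (b := 8) ep_4_k0_0 rfl
  have h := h.next (y := 1) rfl rfl
  have h := h.blk (b := 8) ep_4_k1_0 rfl
  have h := h.next (y := 2) rfl rfl
  have h := h.blk (b := 8) ep_4_k2_0 rfl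
  have h := h.next (y := 3) rfl rfl
  have h := h.blk (b := 8) ep_4_k3_0 rfl
  have h := h.next (y := 4) rfl rfl
  have h := h.blk (b := 8) ep_4_k4_0 rfl
  have h := h.next (y := 5) rfl rfl
  have h := h.blk (b := 8) ep_4_k5_0 rfl
  have h := h.next (y := 6) rfl rfl
  have h := h.blk (b := 8) ep_4_k6_0 rfl
  have h := h.next (y := 7) rfl rfl
  have h := h.blk (b := 8) ep_4_k7_0 rfl
  have h := h.next (y := 8) rfl rfl
  have h := h.blk (b := 8) ep_4_k8_0 rfl
  have h := h.next (y := 9) rfl rfl
  exact h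

theorem ep_4 : Enum relsp (gensW 6) (gensW 7) 351 :=
  ⟨ep_4_cols, ep_4_ch, ep_4_L, ep_4_H, ep_4_pb.1, ep_4_e.get, [(nat_lit 0), (nat_lit 1), (nat_lit 3), (nat_lit 4), (nat_lit 5), (nat_lit 7), (nat_lit 9), (nat_lit 11), (nat_lit 13)], (nat_lit 125), (nat_lit 7), ep_4_rots, ep_4_hcs,
    (nat_lit 352), (nat_lit 9), (nat_lit 512), (nat_lit 256), (nat_lit 131072), (nat_lit 32767), (nat_lit 8), (nat_lit 255), (nat_lit 24), (nat_lit 16777215), (nat_lit 2), (nat_lit 8),
    fun _ _ => rfl, fun _ => rfl, fun _ _ => rfl, by decide +kernel, ep_4_all.1⟩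

theorem bndp {K : Type*} [Group K] {g : ℕ → K} (hr : ∀ r ∈ relsp, ev g r = 1) : Bound g (gensW 7) 4585351680 :=
  (ep_4.bound (rels_sub hr (by decide +kernel))
    (ep_3.bound (rels_sub hr (by decide +kernel))
    (ep_2.bound (rels_sub hr (by decide +kernel))
    (ep_1.bound (rels_sub hr (by decide +kernel))
    (ep_0.bound (rels_sub hr (by decide +kernel))
    (bound_nil _))))))

theorem mp (mdl : Mdl D (lapp U0 U1) f H bs) (card : Nat.card H = 4585351680) : type_of% (mdl.new (k := 9) (l := 7) (by decide) wp (by decide +kernel) (by decide +kernel) qp) := (mdl.new (k := 9) (l := 7) (by decide) wp (by decide +kernel) (by decide +kernel) qp)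

noncomputable def Sp : List Lvl := [⟨(nat_lit 0), [[(nat_lit 13)],
  [(nat_lit 11)],
  [(nat_lit 9)],
  [(nat_lit 7)],
  [(nat_lit 5)],
  [(nat_lit 3)],
  [(nat_lit 1)]], (nat_lit 4)⟩,
  ⟨(nat_lit 1), [[(nat_lit 11)],
  [(nat_lit 9)],
  [(nat_lit 7)],
  [(nat_lit 5)],
  [(nat_lit 3)],
  [(nat_lit 1)]], (nat_lit 5)⟩,
  ⟨(nat_lit 2), [[(nat_lit 9)],
  [(nat_lit 7)],
  [(nat_lit 5)],
  [(nat_lit 3)],
  [(nat_lit 1)]], (nat_lit 4)⟩,
  ⟨(nat_lit 3), [[(nat_lit 7)],
  [(nat_lit 5)],
  [(nat_lit 3)],
  [(nat_lit 1)]], (nat_lit 5)⟩,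
  ⟨(nat_lit 7), [[(nat_lit 5)],
  [(nat_lit 3)],
  [(nat_lit 1)]], (nat_lit 2)⟩,
  ⟨(nat_lit 6), [[(nat_lit 3), (nat_lit 1), (nat_lit 3), (nat_lit 5)]], (nat_lit 1)⟩]


theorem rp_0 : allFrom (relNo (sameW Np 351 9) relsp) 0 30 = true := by decide +kernel

theorem rp : ∀ j < 30, relNo (sameW Np 351 9) relsp j = true := by
  have h : ∀ j < 0, relNo (sameW Np 351 9) relsp j = true := by simp
  have h := forall_lt_add h (allFrom_iff.1 rp_0)
  exact h

theorem presp (mdl : Mdl D (lapp U0 U1) f H bs) (card : Nat.card H = 4585351680) : Presents relsp 7 fun i => (⟨_, (mp mdl card).mem i⟩ : H) :=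
  ((mp mdl card).presents ((mp mdl card).sameW (k := 9) (by decide)) (bndp (ug_rels _)) rp (by decide +kernel) (ch := Sp) card
    (by decide) (by decide +kernel))

noncomputable def Lc2 : LD := ⟨Kc2, (nat_lit 0), Ac2, Bc2⟩

noncomputable def Tc2 : List (List Nat) := [[(nat_lit 15)],
  [(nat_lit 15)],
  [(nat_lit 15)],
  [(nat_lit 15)],
  [(nat_lit 15)],
  [],
  [(nat_lit 15)],
  [],
  [(nat_lit 15)],
  [(nat_lit 15)],
  [(nat_lit 15)],
  [(nat_lit 15)],
  [(nat_lit 15)],
  [(nat_lit 15)],
  [(nat_lit 15)],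
  [],
  [(nat_lit 15)],
  [],
  [],
  [],
  [(nat_lit 15)],
  [],
  [(nat_lit 15)],
  [(nat_lit 15)],
  [],
  [],
  [],
  [(nat_lit 15)],
  [],
  []]

noncomputable def Uc2 : List (List Nat) := [[(nat_lit 8), (nat_lit 1), (nat_lit 5)]]

theorem wc2 : Wf 1080 Kc2 := wf_of_wfAll (by decide +kernel)

theorem rc2_0 : allFrom (tailAt (lsame ar2 Lc2 (sameA Kc2 1080 11)) relsp Tc2) 0 30 = true := by decide +kernel

theorem rc2 : ∀ j < 30, tailAt (lsame ar2 Lc2 (sameA Kc2 1080 11)) relsp Tc2 j = true := by
  have h : ∀ j < 0, tailAt (lsame ar2 Lc2 (sameA Kc2 1080 11)) relsp Tc2 j = true := by simp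
  have h := forall_lt_add h (allFrom_iff.1 rc2_0)
  exact h

theorem cc2 : covOK (lsame ar2 Lc2 (sameA Kc2 1080 11)) 7 1 relsp Tc2 Uc2 = true := by decide +kernel

theorem domc2 (mdl : Mdl D (lapp U0 U1) f H bs) (card : Nat.card H = 4585351680) : Dom H (Multiplicative (ZMod 2)) :=
  dom_lab (L := Lc2) (presp mdl card) wc2 (pf_of_sameA wc2 (k := 11) (by decide)) (by decide +kernel) (by decide +kernel) cc2 rc2
    (by decide +kernel)

noncomputable def Lc3 : LD := ⟨Kc3, (nat_lit 0), Ac3, Bc3⟩

noncomputable def Tc3 : List (List Nat) := [[],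
  [],
  [],
  [],
  [],
  [],
  [],
  [],
  [],
  [],
  [],
  [],
  [],
  [],
  [],
  [(nat_lit 15)],
  [],
  [],
  [],
  [],
  [],
  [],
  [],
  [],
  [],
  [],
  [],
  [],
  [],
  []]

noncomputable def Uc3 : List (List Nat) := [[(nat_lit 32), (nat_lit 32), (nat_lit 11), (nat_lit 11), (nat_lit 41), (nat_lit 41), (nat_lit 1), (nat_lit 1), (nat_lit 4), (nat_lit 4), (nat_lit 4), (nat_lit 4), (nat_lit 13), (nat_lit 13), (nat_lit 13), (nat_lit 13), (nat_lit 13), (nat_lit 21), (nat_lit 21), (nat_lit 21), (nat_lit 34), (nat_lit 34), (nat_lit 34), (nat_lit 34)]]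

theorem wc3 : Wf 378 Kc3 := wf_of_wfAll (by decide +kernel)

theorem rc3_0 : allFrom (tailAt (lsame ar3 Lc3 (sameA Kc3 378 9)) relsp Tc3) 0 30 = true := by decide +kernel

theorem rc3 : ∀ j < 30, tailAt (lsame ar3 Lc3 (sameA Kc3 378 9)) relsp Tc3 j = true := by
  have h : ∀ j < 0, tailAt (lsame ar3 Lc3 (sameA Kc3 378 9)) relsp Tc3 j = true := by simp
  have h := forall_lt_add h (allFrom_iff.1 rc3_0)
  exact h

theorem cc3 : covOK (lsame ar3 Lc3 (sameA Kc3 378 9)) 7 1 relsp Tc3 Uc3 = true := by decide +kernel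

theorem domc3 (mdl : Mdl D (lapp U0 U1) f H bs) (card : Nat.card H = 4585351680) : Dom H (Multiplicative (ZMod 3)) :=
  dom_lab (L := Lc3) (presp mdl card) wc3 (pf_of_sameA wc3 (k := 9) (by decide)) (by decide +kernel) (by decide +kernel) cc3 rc3
    (by decide +kernel)

theorem schur (mdl : Mdl D (lapp U0 U1) f H bs) (card : Nat.card H = 4585351680) :
    HasSchurMultiplier H (Multiplicative (ZMod 6)) :=
  ((domc2 mdl card).zmod_mul (domc3 mdl card) (by decide)).hasSchur ((mult mdl card).trans (by simp))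

theorem schur_of {K : Type*} [Group K] (h : HasReps K 351 U0 2) (hc : Nat.card K = 4585351680) :
    HasSchurMultiplier K (Multiplicative (ZMod 6)) :=
  schur_of_reps chU h hc (by decide) schur

end CF.Schur.O73
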