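import Cfsg.Agent.Schur.Crit
import Cfsg.Agent.Transfer.Norm

/-!
The transfer (norm) map `M(G) → M(U)` in Hopf's description, and uniqueness of Schur covers.
-/

namespace CF.Schur

open Subgroup Function Cfsg
open scoped commutatorElement

universe u v w

section Norm

variable {F : Type u} [Group F] {G : Type v} [Group G] (π : F →* G) (U : Subgroup G)

/-- The map `F_U/[R,F_U] → F/[R,F]`. -/
def covInc : Cov (res π U) →* Cov π :=
  QuotientGroup.map _ _ (U.comap π).subtype (by
    rw [← map_le_iff_le_comap, map_commutator]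
    refine Subgroup.commutator_mono ?_ le_top
    rintro _ ⟨x, hx, rfl⟩
    exact congrArg Subtype.val hx)

@[simp] theorem covInc_mk (x : U.comap π) : covInc π U (x : Cov (res π U)) = ((x : F) : Cov π) := rfl

theorem cov_comp_covInc : (cov π).comp (covInc π U) = U.subtype.comp (cov (res π U)) := by
  refine MonoidHom.ext fun x => ?_
  induction x using QuotientGroup.induction_on with | H x => rfl

theorem res_surjective {π : F →* G} (hπ : Surjective π) (U : Subgroup G) : Surjective (res π U) :=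
  fun y => by
    obtain ⟨x, hx⟩ := hπ y
    exact ⟨⟨x, by rw [mem_comap, hx]; exact y.2⟩, Subtype.ext hx⟩

theorem conj_mem_ker {π : F →* G} (t : F) {r : F} (hr : r ∈ π.ker) : t⁻¹ * r * t ∈ π.ker := by
  simpa using (MonoidHom.normal_ker π).conj_mem r hr t⁻¹

/-- `r ↦ [t⁻¹ r t]` from `R` to `R/[R,F_U]`. -/
def cjHom (t : F) : π.ker →* (cov (res π U)).ker :=
  MonoidHom.mk' (fun r => ⟨((⟨t⁻¹ * r * t, by
      rw [mem_comap, show π (t⁻¹ * r * t) = 1 from conj_mem_ker t r.2]; exact one_mem _⟩ :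
      U.comap π) : Cov (res π U)), Subtype.ext (conj_mem_ker t r.2)⟩) fun a b => by
    apply Subtype.ext
    show ((_ : U.comap π) : Cov (res π U)) = ((_ : U.comap π) : Cov (res π U)) * (_ : U.comap π)
    rw [← QuotientGroup.mk_mul]
    congr 1
    apply Subtype.ext
    show t⁻¹ * (a * b) * t = (t⁻¹ * a * t) * (t⁻¹ * b * t)
    group

theorem coe_cjHom (t : F) (r : π.ker) : (cjHom π U t r : Cov (res π U)) =
    ((⟨t⁻¹ * r * t, by
      rw [mem_comap, show π (t⁻¹ * r * t) = 1 from conj_mem_ker t r.2]; exact one_mem _⟩ :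
      U.comap π) : Cov (res π U)) := rfl

variable {π}

theorem cjHom_mul (hπ : Surjective π) (t : F) {m : F} (hm : m ∈ U.comap π) (r : π.ker) :
    cjHom π U (t * m) r = cjHom π U t r := by
  apply Subtype.ext
  have h := (cext_cov (res_surjective hπ U)).comm (cjHom π U t r).2
    ((⟨m, hm⟩ : U.comap π) : Cov (res π U))
  rw [← inv_mul_eq_iff_eq_mul.2 h.symm, coe_cjHom, coe_cjHom, ← QuotientGroup.mk_inv,
    ← QuotientGroup.mk_mul, ← QuotientGroup.mk_mul]
  congr 1
  apply Subtype.ext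
  show (t * m)⁻¹ * r * (t * m) = m⁻¹ * (t⁻¹ * r * t * m)
  group

theorem cjHom_conj (t f : F) (r : π.ker) :
    cjHom π U t ⟨f⁻¹ * r * f, conj_mem_ker f r.2⟩ = cjHom π U (f * t) r := by
  apply Subtype.ext
  rw [coe_cjHom, coe_cjHom]
  congr 1
  apply Subtype.ext
  show t⁻¹ * (f⁻¹ * r * f) * t = (f * t)⁻¹ * r * (f * t)
  group

theorem covInc_cjHom (hπ : Surjective π) (t : F) (r : π.ker) :
    covInc π U (cjHom π U t r) = ((r : F) : Cov π) := by
  have h := (cext_cov hπ).comm (z := ((r : F) : Cov π)) r.2 (t : Cov π)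
  rw [coe_cjHom, covInc_mk, QuotientGroup.mk_mul, QuotientGroup.mk_mul, QuotientGroup.mk_inv,
    mul_assoc, ← h, inv_mul_cancel_left]

/-- The transfer `M(G) → M(U)`; composed with `M(U) → M(G)` it is the `[G:U]`-th power map. -/
theorem exists_transfer (hπ : Surjective π) [U.FiniteIndex] :
    ∃ T : mul (cov π) →* mul (cov (res π U)),
      ∀ x, covInc π U (T x) = (x : Cov π) ^ U.index := by
  classical
  have hU := cext_cov (res_surjective hπ U)
  have h1 := index_comap_of_surjective U hπ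
  have : (U.comap π).FiniteIndex := ⟨by rw [h1]; exact FiniteIndex.index_ne_zero⟩
  let _ := (U.comap π).fintypeQuotientOfFiniteIndex
  let _ : CommGroup (cov (res π U)).ker := { (inferInstance : Group (cov (res π U)).ker) with
    mul_comm := fun a b => Subtype.ext (hU.comm b.2 a) }
  let N : π.ker →* (cov (res π U)).ker := ∏ q : F ⧸ U.comap π, cjHom π U q.out
  have hN : ∀ r, N r = ∏ q : F ⧸ U.comap π, cjHom π U q.out r := fun r =>
    MonoidHom.finsetProd_apply _ _ _
  have hconj : ∀ (f : F) (r : π.ker), N ⟨f⁻¹ * r * f, conj_mem_ker f r.2⟩ = N r := by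
    intro f r
    rw [hN, hN, ← Equiv.prod_comp (MulAction.toPerm f) (fun q : F ⧸ U.comap π => cjHom π U q.out r)]
    refine Finset.prod_congr rfl fun q _ => ?_
    obtain ⟨m, hm, e⟩ := CF.Transfer.exists_smul_out_eq (M := U.comap π) f q
    rw [cjHom_conj, MulAction.toPerm_apply, e, cjHom_mul U hπ _ hm]
  let θ : π.ker →* (cov π).ker := ((QuotientGroup.mk' _).comp π.ker.subtype).codRestrict _
    fun r => r.2
  have hθ : Surjective θ := by
    rintro ⟨x, hx⟩
    induction x using QuotientGroup.induction_on with | H x =>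
    exact ⟨⟨x, hx⟩, rfl⟩
  have hk : θ.ker ≤ N.ker := by
    intro r hr
    have h2 : (r : F) ∈ ⁅π.ker, (⊤ : Subgroup F)⁆ :=
      (QuotientGroup.eq_one_iff _).1 (congrArg Subtype.val hr)
    have h3 : ⁅π.ker, (⊤ : Subgroup F)⁆ ≤ N.ker.map π.ker.subtype := by
      rw [Subgroup.commutator_le]
      intro a ha f _
      refine ⟨⟨a, ha⟩ * ⟨f⁻¹⁻¹ * (⟨a, ha⟩⁻¹ : π.ker) * f⁻¹, conj_mem_ker _ (⟨a, ha⟩⁻¹ : π.ker).2⟩,
        ?_, by simp [commutatorElement_def, mul_assoc]⟩
      show N _ = 1
      rw [map_mul, hconj, ← map_mul, mul_inv_cancel, map_one]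
    exact (mem_map_iff_mem π.ker.subtype_injective).1 (h3 h2)
  let T₀ := θ.liftOfSurjective hθ ⟨N, hk⟩
  have hT₀ : ∀ r, T₀ (θ r) = N r := fun r => θ.liftOfRightInverse_comp_apply _ _ ⟨N, hk⟩ r
  have hmem : ∀ x : mul (cov π),
      (T₀ ⟨x, x.2.1⟩ : Cov (res π U)) ∈ _root_.commutator (Cov (res π U)) := by
    rintro ⟨x, hx1, hx2⟩
    rw [← map_commutator_of_over (cext_cov hπ).central hπ (cov_comp π)] at hx2
    obtain ⟨r, hr, rfl⟩ := hx2
    have e : (⟨QuotientGroup.mk' _ r, hx1⟩ : (cov π).ker) = θ ⟨r, hx1⟩ := rfl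
    show (T₀ ⟨QuotientGroup.mk' _ r, hx1⟩ : Cov (res π U)) ∈ _
    rw [e, hT₀, hN, ← Abelianization.ker_of, MonoidHom.mem_ker]
    let ψ : F → Abelianization (Cov (res π U)) := fun y =>
      if h : y ∈ U.comap π then Abelianization.of ((⟨y, h⟩ : U.comap π) : Cov (res π U)) else 1
    have hψ : ∀ a ∈ U.comap π, ∀ b ∈ U.comap π, ψ (a * b) = ψ a * ψ b := fun a ha b hb => by
      simp only [ψ, dif_pos ha, dif_pos hb, dif_pos (mul_mem ha hb)]
      rw [← map_mul]; rfl
    have hr' : ∀ g : F, g⁻¹ * r * g ∈ U.comap π := fun g => by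
      rw [mem_comap, show π (g⁻¹ * r * g) = 1 from conj_mem_ker g hx1]; exact one_mem _
    rw [← CF.Transfer.prod_conj_out_eq_one hψ hr' hr]
    show (Abelianization.of.comp (cov (res π U)).ker.subtype) _ = _
    rw [map_prod]
    refine Finset.prod_congr rfl fun q _ => ?_
    simp only [ψ, dif_pos (hr' _)]
    rfl
  refine ⟨(((cov (res π U)).ker.subtype.comp T₀).comp (inclusion (mul_le_ker _))).codRestrict _
    fun x => ⟨(T₀ _).2, hmem x⟩, ?_⟩
  rintro ⟨x, hx⟩
  obtain ⟨r, hr⟩ := hθ ⟨x, hx.1⟩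
  show covInc π U (T₀ ⟨x, hx.1⟩) = x ^ U.index
  have hx' : x = ((r : F) : Cov π) := (congrArg Subtype.val hr).symm
  rw [← hr, hT₀, hN]
  let _ : CommGroup (cov π).ker := { (inferInstance : Group (cov π).ker) with
    mul_comm := fun a b => Subtype.ext ((cext_cov hπ).comm b.2 a) }
  let j : (cov (res π U)).ker →* (cov π).ker :=
    ((covInc π U).comp (cov (res π U)).ker.subtype).codRestrict _ fun y => by
      have h2 : cov π (covInc π U y) = U.subtype (cov (res π U) y) :=
        DFunLike.congr_fun (cov_comp_covInc π U) (y : Cov (res π U))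
      show cov π (covInc π U y) = 1
      rw [h2, show cov (res π U) y = 1 from y.2, map_one]
  have h3 : j (∏ q : F ⧸ U.comap π, cjHom π U q.out r) = θ r ^ U.index := by
    rw [map_prod, Finset.prod_congr rfl (g := fun _ => θ r)
      (fun q _ => Subtype.ext (covInc_cjHom U hπ _ r)), Finset.prod_const, Finset.card_univ,
      ← h1, index_eq_card, Nat.card_eq_fintype_card]
  rw [hx']
  exact congrArg Subtype.val h3

end Norm

/-- Restriction and transfer between multipliers. -/
theorem exists_res_tr {G : Type u} [Group G] (U : Subgroup G) {A : Type v} {B : Type w}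
    [CommGroup A] [CommGroup B] (hA : HasSchurMultiplier G A) (hB : HasSchurMultiplier U B) :
    ∃ (j : B →* A) (T : A →* B), ∀ a, j (T a) = a ^ U.index := by
  have := (finite_of_hasSchurMultiplier hA).1
  obtain ⟨e⟩ := (isCov_taut G).hasSchurMultiplier_iff.1 hA
  obtain ⟨e'⟩ := (isCov_cov (res_surjective (taut_surjective G) U)).hasSchurMultiplier_iff.1 hB
  obtain ⟨T, hT⟩ := exists_transfer U (taut_surjective G)
  refine ⟨e.toMonoidHom.comp ((mulMap _ _ (cov_comp_covInc (taut G) U)).comp e'.symm.toMonoidHom),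
    e'.toMonoidHom.comp (T.comp e.symm.toMonoidHom), fun a => ?_⟩
  obtain ⟨x, rfl⟩ := e.surjective a
  simp only [MonoidHom.comp_apply, MulEquiv.coe_toMonoidHom, MulEquiv.symm_apply_apply]
  rw [← map_pow]
  congr 1
  exact Subtype.ext (hT x)

end CF.Schur
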