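import Cfsg.Agent.Leech.Co1

/-! The representation of degree 23 of `Co₂` modulo 13. -/

set_option autoImplicit false

namespace CF.Schur

open Cfsg CF.Leech

/-- the inner product with a lattice vector -/
noncomputable def dtL (u : LL) : LL →ₗ[ℤ] ℤ :=
  (AddMonoidHom.mk' (fun x : LL => dt x u) fun x y => dotInt_add_left x y u).toIntLinearMap

theorem finrank_ker_dtL {u : LL} (h : nm u ≠ 0) : Module.finrank ℤ (LinearMap.ker (dtL u)) = 23 := by
  have h1 := (LinearMap.ker (dtL u)).finrank_quotient_add_finrank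
  rw [(dtL u).quotKerEquivRange.finrank_eq] at h1
  have h2 : Module.finrank ℤ (LinearMap.range (dtL u)) ≤ 1 := (Submodule.finrank_le _).trans (by simp)
  have h3 : Module.finrank ℤ (LinearMap.range (dtL u)) ≠ 0 := fun e => h (by
    have : dtL u u ∈ LinearMap.range (dtL u) := ⟨u, rfl⟩
    rw [Submodule.finrank_eq_zero.1 e] at this
    exact (dotInt_self _).symm.trans this)
  rw [finrank_leech] at h1
  omega

/-- the action on the orthogonal complement -/
noncomputable def perp1 (u : LL) (g : MulAction.stabilizer Co0 u) : Module.End ℤ (LinearMap.ker (dtL u)) :=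
  (AddMonoidHom.mk' (fun x : LinearMap.ker (dtL u) => (⟨g.1 • x.1, by
    have : dt (g.1 • x.1) (g.1 • u) = 0 := (co_dt _ _ _).trans x.2
    rwa [g.2] at this⟩ : LinearMap.ker (dtL u))) fun x y => Subtype.ext (co_add _ _ _)).toIntLinearMap

/-- the action on the orthogonal complement -/
noncomputable def perp (u : LL) : MulAction.stabilizer Co0 u →* Module.End ℤ (LinearMap.ker (dtL u)) where
  toFun := perp1 u
  map_one' := LinearMap.ext fun x => Subtype.ext (one_smul Co0 x.1)
  map_mul' g h := LinearMap.ext fun x => Subtype.ext (mul_smul g.1 h.1 x.1)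

theorem exists_gl_of_end {G L : Type*} [Group G] [AddCommGroup L] {n : ℕ} (b : Module.Basis (Fin n) ℤ L)
    (ρ : G →* Module.End ℤ L) (m : ℕ) (h : ∀ g, (∀ x, ∃ y, ρ g x = x + (m : ℤ) • y) → g = 1) :
    ∃ f : G →* GL (Fin n) (ZMod m), Function.Injective f := by
  let φ := ((Int.castRingHom (ZMod m)).mapMatrix.toMonoidHom.comp
    (LinearMap.toMatrixAlgEquiv b).toMulEquiv.toMonoidHom).comp ρ
  refine ⟨φ.toHomUnits, (injective_iff_map_eq_one _).2 fun g hg => h g fun x => ?_⟩
  have h1 : ∀ i j, (m : ℤ) ∣ b.repr (ρ g (b j) - b j) i := fun i j => by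
    have h0 : φ g = 1 := congrArg Units.val hg
    have := congrFun (congrFun h0 i) j
    rw [← ZMod.intCast_zmod_eq_zero_iff_dvd, map_sub, Finsupp.sub_apply, Int.cast_sub, sub_eq_zero]
    simpa [φ, LinearMap.toMatrixAlgEquiv_apply, Matrix.one_apply, Finsupp.single_apply, eq_comm] using this
  choose c hc using h1
  refine ⟨∑ j, b.repr x j • ∑ i, c i j • b i, ?_⟩
  rw [← sub_eq_iff_eq_add', Finset.smul_sum]
  conv_lhs => rw [← b.sum_repr x, map_sum, ← Finset.sum_sub_distrib]
  refine Finset.sum_congr rfl fun j _ => ?_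
  rw [map_smul, ← smul_sub, smul_comm, ← b.sum_repr (ρ g (b j) - b j), Finset.smul_sum]
  simp only [hc, mul_smul, Finset.smul_sum]

theorem smul_eq_of_cong (g : Co0) {x y : LL} (hx : nm x ≤ 64) (h : g • x = x + (13 : ℤ) • y) : g • x = x := by
  by_cases hy : y = 0
  · simpa [hy] using h
  have h1 := le_sqNorm y.2 fun e => hy (Subtype.ext e)
  have h2 := co_nm g x
  have h3 := sqNorm_nonneg ((2 : ℤ) • x.1 + (13 : ℤ) • y.1)
  rw [h] at h2
  simp only [nm, AddSubgroup.coe_add, AddSubgroup.coe_zsmul, sqNorm_add, sqNorm_smul, dotInt_smul_right,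
    dotInt_smul_left] at h2 h3 hx
  omega

theorem perp_inj (g : MulAction.stabilizer Co0 Spor.leechU) (h2 : ∀ x, ∃ y, perp _ g x = x + ((13 : ℕ) : ℤ) • y) :
    g = 1 := by
  have h3 : ∀ x : LL, dt x Spor.leechU = 0 → nm x ≤ 64 → g.1 • x = x := fun x hx hn => by
    obtain ⟨y, hy⟩ := h2 ⟨x, hx⟩
    exact smul_eq_of_cong _ hn (congrArg Subtype.val hy)
  have h4 := h3 Spor.leechU' (by decide) (by decide)
  refine Subtype.ext (co_ext fun i => ?_)
  rw [OneMemClass.coe_one, one_smul]
  by_cases h : i = none ∨ i = some 0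
  · rcases h with rfl | rfl
    · rw [show e8 none = Spor.leechU + Spor.leechU' from Subtype.ext (by decide), co_add, h4, g.2]
    · have e : e8 (some 0) + Spor.leechU' = Spor.leechU := Subtype.ext (by decide)
      have := co_add g.1 (e8 (some 0)) Spor.leechU'
      rw [e, h4, g.2] at this
      exact add_right_cancel (this.symm.trans e.symm)
  · exact h3 _ (by rw [dt, dotInt_comm, ← dt, dt_e8]; simp [Spor.leechU, Spor.vecU, h]) (nm_e8 i).le

theorem exists_Co2 : ∃ f : Spor.Co2 →* GL (Fin 23) (ZMod 13), Function.Injective f := by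
  obtain ⟨f, hf⟩ := exists_gl_of_end (Module.finBasisOfFinrankEq ℤ _
    (finrank_ker_dtL (u := Spor.leechU) (by rw [nm_U]; decide))) _ 13 perp_inj
  exact ⟨f.comp Co2Equiv.symm.toMonoidHom, hf.comp Co2Equiv.symm.injective⟩

end CF.Schur
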