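import Cfsg.Agent.Schur.Tb

/-! Covers of the commutator subgroup of a presented group. -/

set_option autoImplicit false

namespace CF.Schur.Pc

open CF.Comp Cfsg Function
open scoped commutatorElement

universe u

variable {G : Type u} [Group G]

/-- The relators lie in a normal subgroup of prime order, and two commuting elements of the commutator subgroup
have lifts that do not commute. -/
theorem dom_comm [Finite G] {rels : List (List ℕ)} {m : ℕ} {f : ℕ → G} (hP : Presents rels m f)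
    {Γ : Type} [Group Γ] (y : ℕ → Γ) {z : Γ} {p : ℕ} (hp : p.Prime) (hz : z ^ p = 1)
    (hn : ∀ i < m, y i * z * (y i)⁻¹ ∈ Subgroup.zpowers z) (hr : ∀ r ∈ rels, ev y r ∈ Subgroup.zpowers z)
    {u v : List ℕ} (hu : ∀ x ∈ u, x ≤ 2 * m) (hv : ∀ x ∈ v, x ≤ 2 * m) (hu' : ev f u ∈ _root_.commutator G)
    (hv' : ev f v ∈ _root_.commutator G) (hc : ev f u * ev f v = ev f v * ev f u)
    (he : ev y u * ev y v ≠ ev y v * ev y u) :
    Dom (_root_.commutator G) (Multiplicative (ZMod p)) := by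
  let Z := Subgroup.zpowers z
  have : Finite Z := (isOfFinOrder_iff_pow_eq_one.2 ⟨p, hp.pos, hz⟩).finite_zpowers
  let Y := Subgroup.normalizer (Z : Set Γ)
  have hy : ∀ i < m, y i ∈ Y := fun i hi => Subgroup.mem_normalizer_fintype (S := (Z : Set Γ)) (by
    rintro _ ⟨k, rfl⟩
    rw [← conj_zpow]
    exact zpow_mem (hn i hi) k)
  let y' : ℕ → Y := fun i => if h : i < m then ⟨y i, hy i h⟩ else 1
  have hy' : ∀ w : List ℕ, (∀ x ∈ w, x ≤ 2 * m) → ((ev y' w : Y) : Γ) = ev y w := fun w hw => by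
    rw [← Y.subtype_apply, map_ev]
    exact ev_congr (fun i hi => by simp [y', hi]) hw
  let N := Z.subgroupOf Y
  obtain ⟨φ, hφ⟩ := hP.2.2 (Y ⧸ N) (fun i => QuotientGroup.mk' N (y' i)) fun r hr' => by
    rw [← map_ev, QuotientGroup.mk'_apply, QuotientGroup.eq_one_iff, Subgroup.mem_subgroupOf,
      hy' r (lettersLe_iff.1 hP.2.1 r hr')]
    exact hr r hr'
  have hφ' : ∀ w : List ℕ, (∀ x ∈ w, x ≤ 2 * m) → QuotientGroup.mk' N (ev y' w) = φ (ev f w) := fun w hw => by
    rw [map_ev, map_ev]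
    exact ev_congr (fun i hi => (hφ i hi).symm) hw
  have hN : N ≤ Z.normalizerMonoidHom.ker := by
    rw [Subgroup.normalizerMonoidHom_ker]
    rintro a ⟨k, hk⟩ _ ⟨l, rfl⟩
    show z ^ l * a.1 = a.1 * z ^ l
    rw [← show z ^ k = a.1 from hk]
    exact (Commute.refl z).zpow_zpow l k
  let α := (QuotientGroup.lift N Z.normalizerMonoidHom hN).comp φ
  have hα : _root_.commutator G ≤ α.ker := by
    let e := IsCyclic.mulAutMulEquiv Z
    let _ := e.toMonoidHom.commGroupOfInjective e.injective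
    exact Abelianization.commutator_subset_ker α
  let ψ := φ.comp (_root_.commutator G).subtype
  have hξ : CExt (pullSnd (QuotientGroup.mk' N) ψ) := by
    refine ⟨fun k => ?_, fun a ha => Subgroup.mem_center_iff.2 fun b => ?_⟩
    · obtain ⟨x, hx⟩ := QuotientGroup.mk'_surjective N (ψ k)
      exact ⟨⟨(x, k), hx⟩, rfl⟩
    have h2 : a.1.2 = 1 := ha
    have h1 : a.1.1 ∈ N := by
      rw [← QuotientGroup.eq_one_iff, ← QuotientGroup.mk'_apply, mem_pull.1 a.2, h2, map_one]
    have h3 : b.1.1 ∈ Z.normalizerMonoidHom.ker := by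
      have h4 : QuotientGroup.lift N Z.normalizerMonoidHom hN (ψ b.1.2) = 1 := hα b.1.2.2
      rwa [← mem_pull.1 b.2] at h4
    rw [Subgroup.normalizerMonoidHom_ker] at h3
    exact Subtype.ext (Prod.ext (Subtype.ext (h3 _ h1).symm) (by simp [h2]))
  let a : pull (QuotientGroup.mk' N) ψ := ⟨(ev y' u, ⟨_, hu'⟩), hφ' u hu⟩
  let b : pull (QuotientGroup.mk' N) ψ := ⟨(ev y' v, ⟨_, hv'⟩), hφ' v hv⟩
  have h5 : pullSnd _ ψ ⁅a, b⁆ = 1 := by
    rw [map_commutatorElement, commutatorElement_eq_one_iff_mul_comm]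
    exact Subtype.ext hc
  refine dom_zmod hξ h5 (Subgroup.commutator_mem_commutator (Subgroup.mem_top a) (Subgroup.mem_top b)) hp ?_
  have h6 : ⁅a, b⁆.1.1 ∈ N := by
    rw [← QuotientGroup.eq_one_iff, ← QuotientGroup.mk'_apply, mem_pull.1 ⁅a, b⁆.2, show ⁅a, b⁆.1.2 = 1 from h5, map_one]
  obtain ⟨k, hk⟩ := h6
  have : Fact p.Prime := ⟨hp⟩
  refine orderOf_eq_prime (Subtype.ext (Prod.ext (Subtype.ext ?_) ?_)) fun e => he ?_
  · show (Y.subtype.comp (pullFst _ ψ)) (⁅a, b⁆ ^ p) = 1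
    rw [map_pow, show (Y.subtype.comp (pullFst _ ψ)) ⁅a, b⁆ = z ^ k from hk.symm, ← zpow_natCast, ← zpow_mul,
      mul_comm, zpow_mul, zpow_natCast, hz, one_zpow]
  · show pullSnd _ ψ (⁅a, b⁆ ^ p) = 1
    rw [map_pow, h5, one_pow]
  · rw [← hy' u hu, ← hy' v hv]
    exact congrArg (fun x => x.1.1.1) (commutatorElement_eq_one_iff_mul_comm.1 e)

/-- one step of `labN` -/
noncomputable def labS (L : LD) (ap : ℕ → ℕ → ℕ) (i r : ℕ) : ℕ :=
  force (ap i (Nat.div r (nat_lit 3))) fun y => Nat.add (Nat.mul (nat_lit 3) y) (Nat.mod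
    (Nat.add (Nat.add (Bool.rec (nat_lit 0) (nat_lit 1) (tb (nth (nat_lit 0) L.la i) y))
      (Bool.rec (nat_lit 0) (nat_lit 2) (tb (nth (nat_lit 0) L.lb i) y)))
      (Nat.mul (Bool.rec (nat_lit 1) (nat_lit 2) (tb L.E i)) r)) (nat_lit 3))

/-- three times the image of the point plus its label -/
noncomputable def labN (L : LD) (ap : ℕ → ℕ → ℕ) (w : List ℕ) (x : ℕ) : ℕ :=
  List.rec (motive := fun _ => ℕ) (Nat.mul (nat_lit 3) x) (fun i _ r => force r (labS L ap i)) w

theorem labN_spec {L : LD} {ap : ℕ → ℕ → ℕ} {n m : ℕ} (h : PtOK (CF.Comp.Dom.nat n) ap (pf L.nets) m) {w : List ℕ}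
    (hw : ∀ a ∈ w, a < m) {x : ℕ} (hx : x < n) : labN L ap w x / 3 < n ∧
      (pv (L.el ar3) w).right.1 x = labN L ap w x / 3 ∧
      (pv (L.el ar3) w).left.toAdd (labN L ap w x / 3) = (labN L ap w x : ZMod 3) := by
  induction w with
  | nil =>
    have e : labN L ap [] x = 3 * x := rfl
    rw [e, Nat.mul_div_cancel_left _ (by omega)]
    refine ⟨hx, rfl, ?_⟩
    rw [Nat.cast_mul, show ((3 : ℕ) : ZMod 3) = 0 from rfl, zero_mul]
    rfl
  | cons i w ih =>
    obtain ⟨h1, h2, h3⟩ := ih fun b hb => hw b (by simp [hb])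
    obtain ⟨h4, h5⟩ := h i (hw i (by simp)) _ h1
    replace h5 : pf L.nets i (labN L ap w x / 3) = ap i (labN L ap w x / 3) := h5
    have e : labN L ap (i :: w) x = 3 * ap i (labN L ap w x / 3) +
        ((Bool.rec 0 1 (tb (nth 0 L.la i) (ap i (labN L ap w x / 3))) : ℕ) +
          (Bool.rec 0 2 (tb (nth 0 L.lb i) (ap i (labN L ap w x / 3))) : ℕ) +
          (Bool.rec 1 2 (tb L.E i) : ℕ) * labN L ap w x) % 3 := by
      rw [show labN L ap (i :: w) x = labS L ap i (labN L ap w x) from force_eq _ _, labS, force_eq]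
      rfl
    generalize labN L ap w x = r at *
    have e1 : labN L ap (i :: w) x / 3 = ap i (r / 3) := by omega
    rw [e1, pv_cons]
    refine ⟨h4, ?_, ?_⟩
    · show pf L.nets i ((pv (L.el ar3) w).right.1 x) = _
      rw [h2, h5]
    · rw [SemidirectProduct.mul_left, toAdd_mul, Pi.add_apply, tw_apply, e, Nat.cast_add, Nat.cast_mul,
        show ((3 : ℕ) : ZMod 3) = 0 from rfl, zero_mul, zero_add, ZMod.natCast_mod]
      show ar3.val ((nth 0 L.la i).testBit _) ((nth 0 L.lb i).testBit _) + sg (tb L.E i) •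
        (pv (L.el ar3) w).left.toAdd ((pf L.nets i)⁻¹ _) = _
      rw [← h5, Equiv.Perm.coe_inv, Equiv.symm_apply_apply, h3, h5, ← tb_eq, ← tb_eq]
      push_cast
      generalize (r : ZMod 3) = c
      revert c
      cases tb (nth 0 L.la i) (ap i (r / 3)) <;> cases tb (nth 0 L.lb i) (ap i (r / 3)) <;> cases tb L.E i <;> decide

/-- the cheap part of the check; element `m` has order three and is inverted by the generators -/
noncomputable def cov3OK (same : List ℕ → List ℕ → Bool) (m : ℕ) (rels tails : List (List ℕ)) : Bool :=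
  lall (fun b => b) [Nat.beq (llen rels) (llen tails), lall (inRange m (nat_lit 1)) tails,
    same (lw (nat_lit 0) [m, m, m]) [],
    allFrom (fun i => same (lw (nat_lit 0) [i, m]) (lw (nat_lit 0) [m, m, i])) (nat_lit 0) m]

theorem dom_lab_comm [Finite G] {rels : List (List ℕ)} {m n : ℕ} {f : ℕ → G} (hP : Presents rels m f) {L : LD}
    (hw : Wf n L.nets) {sp : List ℕ → List ℕ → Bool}
    (hp : ∀ u w, sp u w = true → ev (pf L.nets) u = ev (pf L.nets) w) {tails : List (List ℕ)}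
    (h : cov3OK (lsame ar3 L sp) m rels tails = true)
    (ht : ∀ j < llen rels, tailAt (lsame ar3 L sp) rels tails j = true) {ap : ℕ → ℕ → ℕ}
    (ha : PtOK (CF.Comp.Dom.nat n) ap (pf L.nets) m) {u v : List ℕ} (hl : ltW m [u, v] = true)
    (hu : pv f u ∈ _root_.commutator G) (hv : pv f v ∈ _root_.commutator G) (hc : pv f u * pv f v = pv f v * pv f u)
    {x : ℕ} (hx : x < n) (he : Nat.beq (labN L ap (lapp u v) x) (labN L ap (lapp v u) x) = false) :
    Dom (_root_.commutator G) (Multiplicative (ZMod 3)) := by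
  have hs := ev_eq_of_lsame (A := ar3) hw hp
  simp only [cov3OK, ltW, lall_iff, List.mem_cons, List.not_mem_nil, or_false, forall_eq_or_imp, forall_eq, beq_iff,
    allFrom_zero, llen_eq, ble_iff] at h ht hl
  obtain ⟨h1, h2, h5, h6⟩ := h
  have h7 : ∀ w : List ℕ, (∀ a ∈ w, a + 1 ≤ m) → ∀ a ∈ lw 0 w, a ≤ 2 * m := fun w hw a ha => by
    rw [lw, lmap_eq] at ha
    obtain ⟨b, hb, rfl⟩ := List.mem_map.1 ha
    have := hw b hb
    show 2 * (0 + b) + 1 ≤ _
    omega
  refine dom_comm hP (L.el ar3) (z := L.el ar3 m) Nat.prime_three ?_ (fun i hi => ⟨2, ?_⟩) (fun r hr => ?_)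
    (h7 u hl.1) (h7 v hl.2) (by simpa [ev_lw] using hu) (by simpa [ev_lw] using hv) (by simpa [ev_lw] using hc)
    fun e => beq_false_iff.1 he ?_
  · simpa [ev_lw, pow_succ, mul_assoc] using hs _ _ h5
  · have := hs _ _ (h6 i hi)
    simp only [ev_lw, pv_cons, pv_nil, mul_one, show ∀ j, nat_lit 0 + j = j from Nat.zero_add] at this
    rw [this, ← mul_assoc, mul_inv_cancel_right]
    exact zpow_two _
  · obtain ⟨j, hj, rfl⟩ := exists_nth_of_mem [] hr
    rw [hs _ _ (ht j hj), ← show gen 1 (fun j => L.el ar3 (m + j)) 0 = Subgroup.zpowers (L.el ar3 m) from gen_one _]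
    exact ev_mem_gen (h2 _ (nth_mem _ (by omega)))
  · simp only [ev_lw, zero_add, ← pv_append] at e
    rw [lapp_eq, lapp_eq]
    obtain ⟨-, a2, a3⟩ := labN_spec ha (w := u ++ v) (fun a ha => (List.mem_append.1 ha).elim (hl.1 a) (hl.2 a)) hx
    obtain ⟨-, b2, b3⟩ := labN_spec ha (w := v ++ u) (fun a ha => (List.mem_append.1 ha).elim (hl.2 a) (hl.1 a)) hx
    rw [e, b2] at a2
    rw [e, ← a2, b3, ZMod.natCast_eq_natCast_iff'] at a3
    omega

end CF.Schur.Pc
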