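import Cfsg.Agent.Schur.Pk

/-! Matrix representations of presented groups. -/

set_option autoImplicit false

namespace CF.Schur.Pc

open CF.Comp Function

theorem exists_hom_pk {G : Type*} [Group G] {rels : List (List ℕ)} {m : ℕ} {f : ℕ → G} (hP : Presents rels m f) {P : PK}
    {ms : List ℕ} (h0 : P.ok = true) (hl : llen ms = 2 * m) (hm : ∀ i < m, P.invAt ms i = true)
    (hr : ∀ j < llen rels, relNo (P.same ms) rels j = true) :
    ∃ φ : G →* GL (Fin P.d) (ZMod P.l), ∀ i < m, (φ (f i) : Matrix _ _ _) = P.mat (nth P.one ms (2 * i)) := by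
  obtain ⟨y, hy⟩ := exists_pm_gl h0 hl hm
  obtain ⟨φ, h⟩ := hP.2.2 _ y (rels_of_relNo (hy.same Units.val_injective) hr)
  exact ⟨φ, fun i hi => h i hi ▸ hy.val' i⟩

theorem exists_inj_pk {G : Type*} [Group G] [IsSimpleGroup G] {rels : List (List ℕ)} {m : ℕ} {f : ℕ → G}
    (hP : Presents rels m f) {P : PK} {ms : List ℕ} (h0 : P.ok = true) (hl : llen ms = 2 * m)
    (hm : ∀ i < m, P.invAt ms i = true) (hr : ∀ j < llen rels, relNo (P.same ms) rels j = true) (h1 : 0 < m) {x : ℕ}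
    (ho : P.diff ms x [1] [] = true) : ∃ φ : G →* GL (Fin P.d) (ZMod P.l), Injective φ := by
  obtain ⟨y, hy⟩ := exists_pm_gl h0 hl hm
  obtain ⟨φ, h⟩ := hP.2.2 _ y (rels_of_relNo (hy.same Units.val_injective) hr)
  refine ⟨φ, (MonoidHom.ker_eq_bot_iff φ).1 ((φ.normal_ker.eq_bot_or_eq_top).resolve_right fun e => hy.diff ho ?_)⟩
  have h2 : φ (f 0) = 1 := MonoidHom.mem_ker.1 (e ▸ Subgroup.mem_top _)
  rw [ev_single y 0, ← h 0 h1, h2, ev_nil]

end CF.Schur.Pc
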