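import Cfsg.Agent.Schur.Pk

/-! Projective representations of presented simple groups. -/

set_option autoImplicit false

namespace CF.Schur.Pc

open CF.Comp Function

theorem exists_cover_sub {G : Type*} [Group G] [IsSimpleGroup G] {rels : List (List ℕ)} {m : ℕ} {f : ℕ → G}
    (hP : Presents rels m f) {Γ : Type} [Group Γ] (y : ℕ → Γ) (hc : ∀ i < m, y i * y m = y m * y i)
    (hr : ∀ r ∈ rels, ev y r ∈ Subgroup.zpowers (y m)) {a b : ℕ} (ha : a < m) (hb : b < m)
    (hn : y a * y b ≠ y b * y a) :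
    ∃ H : Subgroup Γ, Nat.card (Subgroup.center H) = orderOf (y m) ∧ Nonempty (G ≃* H ⧸ Subgroup.center H) := by
  let H := Subgroup.closure (y '' {i | i ≤ m})
  let y' : ℕ → H := fun i => if h : i ≤ m then ⟨y i, Subgroup.subset_closure ⟨i, h, rfl⟩⟩ else 1
  have hy : ∀ i ≤ m, (y' i : Γ) = y i := fun i hi => by simp [y', hi]
  have ht : Subgroup.closure (y' '' {i | i ≤ m}) = ⊤ := Subgroup.map_injective H.subtype_injective (by
    rw [MonoidHom.map_closure, ← MonoidHom.range_eq_map, H.range_subtype, Set.image_image]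
    exact congrArg _ (Set.image_congr hy))
  let N := Subgroup.zpowers (y' m)
  have hN : N ≤ Subgroup.center H := by
    rw [Subgroup.zpowers_le, Subgroup.mem_center_iff]
    intro g
    have : ⊤ ≤ Subgroup.centralizer {y' m} := by
      rw [← ht, Subgroup.closure_le]
      rintro _ ⟨i, hi, rfl⟩
      refine Subgroup.mem_centralizer_singleton_iff.2 (Subtype.ext ?_)
      rw [Subgroup.coe_mul, Subgroup.coe_mul, hy i hi, hy m le_rfl]
      rcases (show i ≤ m from hi).eq_or_lt with rfl | h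
      exacts [rfl, hc i h]
    exact Subgroup.mem_centralizer_singleton_iff.1 (this trivial)
  have : N.Normal := ⟨fun a ha g => by rwa [Subgroup.mem_center_iff.1 (hN ha) g, mul_inv_cancel_right]⟩
  obtain ⟨φ, hφ⟩ := hP.2.2 (H ⧸ N) (fun i => QuotientGroup.mk' N (y' i)) fun r hr' => by
    obtain ⟨k, hk⟩ := hr r hr'
    rw [← map_ev, QuotientGroup.mk'_apply, QuotientGroup.eq_one_iff]
    refine ⟨k, Subtype.ext ?_⟩
    rw [← H.subtype_apply, ← H.subtype_apply, map_ev, map_zpow, H.subtype_apply, hy m le_rfl]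
    exact hk.trans (ev_congr (fun i hi => (hy i hi.le).symm) (lettersLe_iff.1 hP.2.1 r hr'))
  have h0 : y' a ∉ Subgroup.center H := fun h => hn (by
    rw [← hy a ha.le, ← hy b hb.le]
    exact congrArg Subtype.val (Subgroup.mem_center_iff.1 h (y' b)).symm)
  have hi : Injective φ := (MonoidHom.ker_eq_bot_iff φ).1 (φ.normal_ker.eq_bot_or_eq_top.resolve_right fun e =>
    h0 (hN ((QuotientGroup.eq_one_iff _).1 ((hφ a ha).symm.trans (MonoidHom.mem_ker.1 (e ▸ Subgroup.mem_top _))))))
  have hs : Surjective φ := by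
    rw [← MonoidHom.range_eq_top, eq_top_iff, ← Subgroup.map_top_of_surjective _ (QuotientGroup.mk'_surjective N), ← ht,
      MonoidHom.map_closure, Subgroup.closure_le]
    rintro _ ⟨_, ⟨i, hi, rfl⟩, rfl⟩
    rcases (show i ≤ m from hi).eq_or_lt with rfl | h
    · exact ⟨1, by rw [map_one, QuotientGroup.mk'_apply, eq_comm, QuotientGroup.eq_one_iff]; exact Subgroup.mem_zpowers _⟩
    · exact ⟨_, hφ i h⟩
  let e := MulEquiv.ofBijective φ ⟨hi, hs⟩
  have : IsSimpleGroup (H ⧸ N) := e.symm.isSimpleGroup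
  have hZ : N = Subgroup.center H := le_antisymm hN (by
    rcases ((inferInstance : (Subgroup.center H).Normal).map _ (QuotientGroup.mk'_surjective N)).eq_bot_or_eq_top with h | h
    · rwa [Subgroup.map_eq_bot_iff, QuotientGroup.ker_mk'] at h
    · have := congrArg (Subgroup.comap (QuotientGroup.mk' N)) h
      rw [Subgroup.comap_map_eq, QuotientGroup.ker_mk', sup_eq_left.2 hN, Subgroup.comap_top] at this
      exact absurd (this ▸ Subgroup.mem_top _) h0)
  exact ⟨H, by rw [← hZ, Nat.card_zpowers, ← Subgroup.orderOf_coe, hy m le_rfl],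
    ⟨e.trans (QuotientGroup.quotientMulEquivOfEq hZ)⟩⟩

/-- relator number `j` is a power of the last element -/
noncomputable def powAt (same : List ℕ → List ℕ → Bool) (rels : List (List ℕ)) (m : ℕ) (ks : List ℕ) (j : ℕ) : Bool :=
  same (nth [] rels j) (wpow [2 * m + 1] (nth 0 ks j))

theorem mem_of_powAt {Γ : Type*} [Group Γ] {y : ℕ → Γ} {same : List ℕ → List ℕ → Bool}
    (hs : ∀ u w, same u w = true → ev y u = ev y w) {rels : List (List ℕ)} {m : ℕ} {ks : List ℕ}
    (h : ∀ j < llen rels, powAt same rels m ks j = true) : ∀ r ∈ rels, ev y r ∈ Subgroup.zpowers (y m) := by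
  intro r hr
  obtain ⟨j, hj, rfl⟩ := exists_nth_of_mem [] hr
  rw [hs _ _ (h j (by rwa [llen_eq])), ev_wpow, ev_single]
  exact Subgroup.npow_mem_zpowers _ _

theorem exists_cover_sl {G : Type*} [Group G] [IsSimpleGroup G] {rels : List (List ℕ)} {m : ℕ} {f : ℕ → G}
    (hP : Presents rels m f) {P : PK} [NeZero P.l] (hG : P.l < Nat.card G) {ms : List ℕ} (h0 : P.ok = true)
    (hl : llen ms = 2 * (m + 1)) (hm : ∀ i < m + 1, P.invAt ms i = true) {ks : List ℕ}
    (hr : ∀ j < llen rels, powAt (P.same ms) rels m ks j = true) {c : ℕ}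
    (hz : ∀ i j : Fin P.d, P.ent (nth P.one ms (2 * m)) (P.d * i + j) = if i = j then c else 0)
    (hd : (c : ZMod P.l) ^ P.d = 1) {p : ℕ} (hp : p.Prime) (hc : (c : ZMod P.l) ^ p = 1) {a b : ℕ} (ha : a < m) (hb : b < m) {x x' : ℕ}
    (hn : P.diff ms x (lapp [2 * a + 1] [2 * b + 1]) (lapp [2 * b + 1] [2 * a + 1]) = true)
    (ho : P.diff ms x' [2 * m + 1] [] = true) :
    ∃ H : Subgroup (Matrix.SpecialLinearGroup (Fin P.d) (ZMod P.l)),
      Nat.card (Subgroup.center H) = p ∧ Nonempty (G ≃* H ⧸ Subgroup.center H) := by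
  have hz' : P.mat (nth P.one ms (2 * m)) = (c : ZMod P.l) • (1 : Matrix _ _ _) := by
    ext i j
    rw [Matrix.smul_apply, Matrix.one_apply, smul_eq_mul, mul_ite, mul_one, mul_zero, PK.mat, Matrix.of_apply, hz,
      Nat.cast_ite, Nat.cast_zero]
  obtain ⟨y, hy⟩ := exists_pm_gl h0 hl hm
  have h1 : Matrix.GeneralLinearGroup.det (y m) = 1 := Units.ext (by
    rw [Matrix.GeneralLinearGroup.val_det_apply, show (y m).1 = _ from hy.val' m, hz', Matrix.det_smul, Matrix.det_one,
      Fintype.card_fin, hd, mul_one, Units.val_one])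
  obtain ⟨φ, hφ⟩ := hP.2.2 _ (fun i => Matrix.GeneralLinearGroup.det (y i)) fun r h => by
    obtain ⟨k, hk⟩ := mem_of_powAt (hy.same Units.val_injective) hr r h
    rw [← map_ev, ← hk, map_zpow, h1, one_zpow]
  have h3 : φ.ker = ⊤ := φ.normal_ker.eq_bot_or_eq_top.resolve_left fun e => by
    have := (Nat.card_le_card_of_injective _ ((MonoidHom.ker_eq_bot_iff φ).1 e)).trans
      (Nat.card_le_card_of_injective _ Units.val_injective)
    rw [Nat.card_zmod] at this
    omega
  obtain ⟨w, hw⟩ := exists_pm (ρ := (Units.coeHom _).comp Matrix.SpecialLinearGroup.toGL) h0 hl hm fun i hi => by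
    have : Matrix.GeneralLinearGroup.det (y i) = 1 := by
      rcases (Nat.lt_succ_iff.1 hi).eq_or_lt with rfl | h
      exacts [h1, (hφ i h).symm.trans (MonoidHom.mem_ker.1 (h3 ▸ Subgroup.mem_top _))]
    exact ⟨⟨(y i).1, congrArg Units.val this⟩, hy.val' i⟩
  have hi : Injective ((Units.coeHom _).comp (Matrix.SpecialLinearGroup.toGL (n := Fin P.d) (R := ZMod P.l))) :=
    Units.val_injective.comp Matrix.SpecialLinearGroup.toGL_injective
  obtain ⟨H, h4, h5⟩ := exists_cover_sub hP w (fun i _ => hi (by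
    rw [map_mul, map_mul, hw.val' m, hz', Matrix.mul_smul, Matrix.smul_mul, mul_one, one_mul]))
    (mem_of_powAt (hw.same hi) hr) ha hb (by simpa only [ev_lapp, ev_single] using ne_of_apply_ne _ (hw.diff hn))
  have := Fact.mk hp
  exact ⟨H, h4.trans (orderOf_eq_prime (hi (by rw [map_pow, hw.val' m, hz', smul_pow, hc, one_pow, one_smul, map_one]))
    (by simpa only [ev_single, ev_nil] using ne_of_apply_ne _ (hw.diff ho))), h5⟩

end CF.Schur.Pc
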