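import Cfsg.Agent.Schur.AltB
import Cfsg.Agent.Schur.CovM
import Cfsg.Agent.Schur.HND
import Cfsg.Agent.Comp.HN.Main

set_option autoImplicit false
set_option maxRecDepth 1000000
set_option maxHeartbeats 0
set_option Elab.async false

namespace CF.Schur.HN

open CF.Comp CF.Schur.Pc Cfsg CF.Dce CF.Comp.HN

/-- the table of the letters: the generators, their inverses and the values `Y` of a program -/
noncomputable def tb (Y : List ℕ) (x : ℕ) : ℕ :=
  Bool.rec (Bool.rec (force (Nat.div (Nat.sub x 9) 2) (nth 0 Y)) 0 (Nat.beq (Nat.mod x 2) 0)) (nth 0 X x) (Nat.ble x 8)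

/-- a step of the program -/
noncomputable def lay (Y : List ℕ) (ws : List (List ℕ)) (j : ℕ) : Bool :=
  Nat.beq (evW P.mulR P.one (tb Y) (nth [] ws j)) (nth 0 Y j)

/-- equality of words -/
noncomputable abbrev eq' : (ℕ → ℕ) → List ℕ → List ℕ → Bool := Dce.eqM P.mulR P.one (full 159201)

theorem tb_even (Y : List ℕ) (j : ℕ) : tb Y (2 * (4 + j) + 2) = 0 := by
  rw [tb, ble_false_iff.2 (by omega), beq_iff.2 (show Nat.mod (2 * (4 + j) + 2) 2 = 0 from (by omega : _ % 2 = 0))]

theorem tb_odd (Y : List ℕ) (j : ℕ) : tb Y (2 * (4 + j) + 1) = nth 0 Y j := by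
  rw [tb, ble_false_iff.2 (by omega), beq_false_iff.2 (show Nat.mod (2 * (4 + j) + 1) 2 ≠ 0 from (by omega : _ % 2 ≠ 0)),
    force_eq]
  exact congrArg _ (show (2 * (4 + j) + 1 - 9) / 2 = j by omega)

theorem tbl_lay {Y : List ℕ} {ws : List (List ℕ)} {l : ℕ} (h1 : slpLe ws 4 = true) (h2 : llen ws = l)
    (h3 : llen Y = l) (h : ∀ j < l, lay Y ws j = true) :
    Tbl 5 9 133 P.mulR P.one (full 159201) ι (slp b ws 4) (tb Y) := by
  rw [llen_eq] at h2 h3
  have e : ∀ {w}, (∀ x ∈ w, IsZ 5 9 133 (tb Y x) (ι (evL (slp b ws 4) x))) →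
      IsZ 5 9 133 (evW P.mulR P.one (tb Y) w) (ι (ev (slp b ws 4) w)) := fun h =>
    rp_evW (Rp := fun x a => IsZ 5 9 133 x (ι a)) (map_one ι ▸ MP.isM_one.isZ)
      (fun h h' => map_mul ι _ _ ▸ MP.isZ_mul h h') h
  have key : ∀ j, ∀ x ≤ 2 * (4 + j), IsZ 5 9 133 (tb Y x) (ι (evL (slp b ws 4) x)) := by
    intro j
    induction j with
    | zero =>
      intro x hx
      rw [tb, ble_iff.2 hx, evL_congr (f := slp b ws 4) (m := 4) (fun i hi => slp_lt b ws hi) hx]
      exact (b_isM x hx).isZ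
    | succ j ih =>
      intro x hx
      rcases (by omega : x ≤ 2 * (4 + j) ∨ x = 2 * (4 + j) + 1 ∨ x = 2 * (4 + j) + 2) with hx | rfl | rfl
      · exact ih x hx
      · rw [tb_odd, evL_odd]
        rcases lt_or_ge j l with hj | hj
        · rw [slp_add' b h1 (h2 ▸ hj), ← beq_iff.1 (h j hj)]
          exact e fun y hy => ih y (slpLe_iff.1 h1 j (h2 ▸ hj) y hy)
        · rw [nth_of_le _ (h3 ▸ hj)]
          exact MP.isZ_zero _
      · exact tb_even Y j ▸ MP.isZ_zero _
  exact ⟨fun _ => e fun x _ => key x x (by omega), ι_inj, by decide, by decide, rfl⟩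

/-- a generator as a word in the polycyclic generators -/
noncomputable def uAt (Y : List ℕ) (o n : ℕ) (A B : List (List ℕ)) (i : ℕ) : Bool :=
  Bool.rec false (eq' (tb Y) (nth [] A i) (lw o (nth [] B i))) (lall (fun a => Nat.ble (Nat.succ a) n) (nth [] B i))

theorem low {Y : List ℕ} {ws as ex U : List (List ℕ)} {N Z o n s : ℕ} {hs : List (ℕ × ℕ)} {ch : List Lvl}
    (T : Tbl 5 9 133 P.mulR P.one (full 159201) ι (slp b ws 4) (tb Y)) (h : rw' N Z as ex hs (tb Y) = true)
    (h1 : lmap (subst SW) as = as) (h2 : lall (wordIn H1) as = true) (h3 : lettersLe 4 as = true)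
    (h4 : (Bool.rec false (Nat.ble s (chainProd N0 1408 (subC as ch))) (chainOK N0 1408 (subC as ch)) : Bool) = true)
    (h5 : allFrom (uAt Y o n (lapp as ex) U) 0 (llen (lapp as ex)) = true) :
    (N + 1) * s ≤ Nat.card (gen n (fun i => slp b ws 4 (o + i)) 0) := by
  have e := card_clo h1 h2
  have : Finite (clo γ as) := Nat.finite_of_card_ne_zero (e ▸ Nat.card_pos.ne')
  refine ((Nat.mul_le_mul_left _ ?_).trans (Nat.le_of_dvd Nat.card_pos (row_dvd MP T h))).trans
    (Subgroup.card_le_of_le (clo_le.2 fun w hw => ?_))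
  · rw [clo_slp h3, e]
    exact le_card_clo (repsV rels56) (by decide) h4
  · obtain ⟨i, hi, rfl⟩ := List.getElem_of_mem hw
    have := allFrom_zero.1 h5 i (by rwa [llen_eq])
    rw [uAt, brec_and, nth_eq_getD _ (lapp as ex), List.getD_eq_getElem _ _ hi] at this
    rw [T.eqv _ _ this.2, ev_lw]
    exact pv_mem fun a ha => mem_gen _ (Nat.zero_le a) (ble_iff.1 (lall_iff.1 this.1 a ha))

end CF.Schur.HN
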