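import Cfsg.Agent.Schur.Bit
import Cfsg.Agent.Schur.Lab

/-! Models in which single points are followed through lookup tables. -/

set_option autoImplicit false

namespace CF.Schur.Pc

open CF.Comp Cfsg Function

variable {G Ω : Type*} [Group G] [MulAction G Ω] {n : ℕ} {D : CF.Comp.Dom Ω n} {f : ℕ → G}
  {H : Subgroup G} {bs : List ℕ} {ap : ℕ → ℕ → ℕ}

/-- `ap i` is the action of `f i`, for `i < m` -/
def PtOK (D : CF.Comp.Dom Ω n) (ap : ℕ → ℕ → ℕ) (f : ℕ → G) (m : ℕ) : Prop :=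
  ∀ i < m, ∀ x < n, ap i x < n ∧ f i • D.pt x = D.pt (ap i x)

/-- the image of a point under a product of generators -/
noncomputable def ptV (ap : ℕ → ℕ → ℕ) (w : List ℕ) (x : ℕ) : ℕ :=
  List.rec (motive := fun _ => ℕ) x (fun i _ r => force r (ap i)) w

theorem PtOK.ptV {m : ℕ} (h : PtOK D ap f m) {w : List ℕ} (hw : ∀ a ∈ w, a < m) {x : ℕ} (hx : x < n) :
    ptV ap w x < n ∧ pv f w • D.pt x = D.pt (ptV ap w x) := by
  induction w with
  | nil => exact ⟨hx, one_smul _ _⟩
  | cons a w ih =>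
    obtain ⟨h1, h2⟩ := ih fun b hb => hw b (by simp [hb])
    have e : Pc.ptV ap (a :: w) x = ap a (Pc.ptV ap w x) := force_eq _ _
    rw [e, pv_cons, mul_smul, h2]
    exact h a (hw a (by simp)) _ h1

/-- the action of the products `W` -/
noncomputable def apW (ap : ℕ → ℕ → ℕ) (W : List (List ℕ)) (i x : ℕ) : ℕ := ptV ap (nth [] W i) x

/-- the products `W` -/
noncomputable def pvs (f : ℕ → G) (W : List (List ℕ)) (i : ℕ) : G := pv f (nth [] W i)

noncomputable def ltW (m : ℕ) (W : List (List ℕ)) : Bool := lall (lall fun a => Nat.ble (Nat.succ a) m) W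

theorem PtOK.apW {m : ℕ} (h : PtOK D ap f m) {W : List (List ℕ)} (hW : ltW m W = true) (i : ℕ) {x : ℕ} (hx : x < n) :
    apW ap W i x < n ∧ pvs f W i • D.pt x = D.pt (apW ap W i x) := by
  refine h.ptV (fun a ha => ?_) hx
  rcases nth_mem_or [] W i with e | e
  · exact ble_iff.1 (lall_iff.1 (lall_iff.1 hW _ e) a ha)
  · rw [e] at ha; cases ha

/-- the elements `f i` of `H` act as `ap i`, and `bs` is a base of `H` -/
structure PMdl (D : CF.Comp.Dom Ω n) (ap : ℕ → ℕ → ℕ) (f : ℕ → G) (H : Subgroup G) (bs : List ℕ) : Prop where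
  act : ∀ i, ∀ x < n, ap i x < n ∧ f i • D.pt x = D.pt (ap i x)
  lt : n < 16777215
  mem : ∀ i, f i ∈ H
  blt : ∀ b ∈ bs, b < n
  base : ∀ g ∈ H, (∀ b ∈ bs, g • D.pt b = D.pt b) → g = 1

/-- the products fix the point `s` -/
theorem PtOK.fix {m : ℕ} (h : PtOK D ap f m) {W : List (List ℕ)} (hW : ltW m W = true) {s : ℕ} (hs : s < n)
    (hc : lall (fun w => Nat.beq (Pc.ptV ap w s) s) W = true) (i : ℕ) : pvs f W i • D.pt s = D.pt s := by
  rw [(h.apW hW i hs).2, Pc.apW]
  rcases nth_mem_or [] W i with e | e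
  · rw [beq_iff.1 (lall_iff.1 hc _ e)]
  · rw [e]; rfl

/-- the image of a point under a word without inverses -/
noncomputable def ptL (ap : ℕ → ℕ → ℕ) (w : List ℕ) (x : ℕ) : ℕ :=
  List.rec (motive := fun _ => ℕ) x (fun a _ r => force r (ap (Nat.shiftRight a (nat_lit 1)))) w

noncomputable def oddW (w : List ℕ) : Bool := lall (fun a => Nat.beq (Nat.land a (nat_lit 1)) (nat_lit 1)) w

theorem PMdl.ptL (h : PMdl D ap f H bs) {w : List ℕ} (hw : oddW w = true) {x : ℕ} (hx : x < n) :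
    ptL ap w x < n ∧ ev f w • D.pt x = D.pt (ptL ap w x) := by
  rw [oddW, lall_iff] at hw
  induction w with
  | nil => exact ⟨hx, one_smul _ _⟩
  | cons a w ih =>
    obtain ⟨h1, h2⟩ := ih fun b hb => hw b (by simp [hb])
    have e : Pc.ptL ap (a :: w) x = ap (a >>> 1) (Pc.ptL ap w x) := force_eq _ _
    have h3 : a &&& 1 = 1 := beq_iff.1 (hw a (by simp))
    rw [Nat.and_one_is_mod] at h3
    obtain ⟨i, rfl⟩ : ∃ i, a = 2 * i + 1 := ⟨a / 2, by omega⟩
    rw [e, ev_cons, mul_smul, h2, evL_odd, Nat.shiftRight_eq_div_pow, show (2 * i + 1) / 2 ^ 1 = i by omega]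
    exact h.act i _ h1

/-- the two words agree on the base -/
noncomputable def sameT (ap : ℕ → ℕ → ℕ) (bs u w : List ℕ) : Bool :=
  Bool.rec false (Bool.rec false (lall (fun b => Nat.beq (ptL ap u b) (ptL ap w b)) bs) (oddW w)) (oddW u)

theorem PMdl.sameT (h : PMdl D ap f H bs) (u w : List ℕ) (hc : sameT ap bs u w = true) : ev f u = ev f w := by
  rw [Pc.sameT, brec_and, brec_and, lall_iff] at hc
  refine (inv_mul_eq_one.1 (h.base _ (mul_mem (inv_mem (ev_mem h.mem w)) (ev_mem h.mem u)) fun b hb => ?_)).symm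
  rw [mul_smul, (h.ptL hc.1 (h.blt b hb)).2, beq_iff.1 (hc.2.2 b hb), ← (h.ptL hc.2.1 (h.blt b hb)).2, inv_smul_smul]

/-! ### lower bounds for orders -/

/-- `O ∪ w O ∪ … ∪ w ^ q O` -/
noncomputable def stepO (ap : ℕ → ℕ → ℕ) (q : ℕ) (w O : List ℕ) : List ℕ :=
  Nat.rec (motive := fun _ => List ℕ) O (fun _ r => forceL r fun r => lapp O (lmap (ptL ap w) r)) q

noncomputable def orbT (ap : ℕ → ℕ → ℕ) (q : ℕ) (ws : List (List ℕ)) (b : ℕ) : List ℕ :=
  List.rec (motive := fun _ => List ℕ) [b] (fun w _ r => forceL r fun O => stepO ap q w O) ws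

/-- the set of members of a list -/
noncomputable def bitsL (O : List ℕ) : ℕ → ℕ :=
  List.rec (motive := fun _ => ℕ → ℕ) (fun a => a)
    (fun x _ ih a => force (Nat.lor a (Nat.shiftLeft (nat_lit 1) x)) ih) O

theorem testBit_bitsL {O : List ℕ} {a x : ℕ} (h : (bitsL O a).testBit x = true) : a.testBit x = true ∨ x ∈ O := by
  induction O generalizing a with
  | nil => exact .inl h
  | cons y O ih =>
    have e : bitsL (y :: O) a = bitsL O (a ||| Nat.shiftLeft (nat_lit 1) y) := force_eq _ _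
    rw [e] at h
    rcases ih h with h | h
    · rw [Nat.testBit_or, Bool.or_eq_true, one_shl, Nat.testBit_two_pow, decide_eq_true_iff] at h
      exact h.imp_right fun e => by simp [e]
    · exact .inr (by simp [h])

theorem PMdl.orbT (h : PMdl D ap f H bs) {K : Subgroup G} {q b : ℕ} (hb : b < n) {ws : List (List ℕ)}
    (hw : ∀ w ∈ ws, oddW w = true ∧ ev f w ∈ K) : ∀ x ∈ orbT ap q ws b, x < n ∧ D.pt x ∈ orbIn K (D.pt b) := by
  induction ws with
  | nil =>
    intro x hx
    rw [List.mem_singleton.1 hx]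
    exact ⟨hb, 1, one_mem _, one_smul _ _⟩
  | cons w ws ih =>
    have h1 := ih fun u hu => hw u (by simp [hu])
    have e : Pc.orbT ap q (w :: ws) b = stepO ap q w (Pc.orbT ap q ws b) := forceL_eq _ _
    rw [e]
    generalize Pc.orbT ap q ws b = O at h1
    clear e ih
    induction q with
    | zero => exact h1
    | succ q ih =>
      have e : stepO ap (q + 1) w O = lapp O (lmap (Pc.ptL ap w) (stepO ap q w O)) := forceL_eq _ _
      rw [e, lapp_eq, lmap_eq]
      intro x hx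
      rcases List.mem_append.1 hx with hx | hx
      · exact h1 x hx
      obtain ⟨y, hy, rfl⟩ := List.mem_map.1 hx
      obtain ⟨h2, g, hg, h3⟩ := ih y hy
      obtain ⟨h4, h5⟩ := h.ptL (hw w (by simp)).1 h2
      exact ⟨h4, ev f w * g, mul_mem (hw w (by simp)).2 hg, by rw [mul_smul, h3, h5]⟩

/-- level `j` of the chain: the later words fix the point, whose orbit has at least `L.k` points -/
noncomputable def lvlT (ap : ℕ → ℕ → ℕ) (q n : ℕ) (c : List Lvl) : ℕ → Bool :=
  List.rec (motive := fun _ => ℕ → Bool) (fun _ => true) (fun L t ih j => Nat.rec (motive := fun _ => Bool)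
    (Bool.rec (Bool.rec false (Bool.rec false (Nat.ble L.k (pop n (bitsL (orbT ap q L.ws L.b) (nat_lit 0))))
      (lall (fun w => Nat.beq (ptL ap w L.b) L.b) (cgens t))) (lall oddW L.ws)) false (Nat.ble n L.b))
    (fun i _ => ih i) j) c

noncomputable def prodT (c : List Lvl) : ℕ :=
  List.rec (motive := fun _ => ℕ) (nat_lit 1) (fun L _ r => Nat.mul L.k r) c

theorem PMdl.chain_le (h : PMdl D ap f H bs) {q : ℕ} {c : List Lvl} (ok : ∀ j < c.length, lvlT ap q n c j = true)
    {K : Subgroup G} [Finite K] (hK : ∀ w ∈ cgens c, ev f w ∈ K) :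
    (∀ w ∈ cgens c, oddW w = true) ∧ prodT c ≤ Nat.card K := by
  induction c generalizing K with
  | nil => exact ⟨by simp [cgens], Nat.card_pos⟩
  | cons L t ih =>
    have h0 := brec_not_and.1 (ok 0 (by simp))
    rw [brec_and, brec_and, ble_false_iff, ble_iff, lall_iff, lall_iff] at h0
    obtain ⟨hb, h1, h2, h3⟩ := h0
    rw [cgens_cons] at hK ⊢
    have ok' : ∀ j < t.length, lvlT ap q n t j = true := fun j hj => ok (j + 1) (by simpa using hj)
    have h4 := (ih ok' fun w hw => hK w (by simp [hw])).1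
    refine ⟨fun w hw => (List.mem_append.1 hw).elim (h1 w) (h4 w), ?_⟩
    have h5 := h.orbT (K := K) (q := q) hb fun w hw => ⟨h1 w hw, hK w (by simp [hw])⟩
    have h6 : ∀ x, (bitsL (Pc.orbT ap q L.ws L.b) 0).testBit x = true → x < n ∧ D.pt x ∈ orbIn K (D.pt L.b) :=
      fun x hx => (testBit_bitsL hx).elim (by simp) (h5 x)
    rw [card_eq_orb_mul K (D.pt L.b)]
    refine Nat.mul_le_mul (h3.trans ?_) (ih ok' fun w hw => mem_stabIn.2 ⟨hK w (by simp [hw]), ?_⟩).2
    · rw [pop_eq h.lt fun x hx => Bool.eq_false_iff.2 fun e => (h6 x e).1.not_ge hx, ← D.ncard_set]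
      refine Set.ncard_le_ncard (fun y hy => ?_) (orbIn_finite _ _)
      obtain ⟨i, -, hi, rfl⟩ := CF.Comp.Dom.mem_set.1 hy
      exact (h6 i hi).2
    · rw [(h.ptL (h4 w hw) hb).2, beq_iff.1 (h2 w hw)]

/-- the cheap part of the lower bound -/
noncomputable def lowT (o : ℕ) (P : Dat) (c : List Lvl) (l : ℕ) : Bool :=
  Bool.rec false (Bool.rec false (Nat.ble (Nat.pow P.p P.n) (prodT c)) (Nat.beq (llen c) l))
    (lall (inRange o P.n) (cgens c))

theorem PMdl.pbd (h : PMdl D ap f H bs) {c : Cert} (ok : c.OK) {o : ℕ} {gs : List (List ℕ)}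
    (h1 : ∀ j < c.P.n, relRow (Pc.sameT ap bs) o c.P j = true) (h2 : lall (prAt (Pc.sameT ap bs) o gs) c.P.prs = true)
    {ch : List Lvl} {q l : ℕ} (h3 : lowT o c.P ch l = true) (h4 : ∀ j < l, lvlT ap q n ch j = true)
    {N : ℕ} (hN : Nat.card H = N) (hG : ¬ c.P.p ^ (c.P.n + 1) ∣ N) {p B : ℕ}
    (hp : c.P.p = p) (hB : (c.gs.map Gen.e).prod = B) : PBd H p B := by
  have : Finite H := Nat.finite_of_card_ne_zero (by rintro e; rw [← hN, e] at hG; exact hG (dvd_zero _))
  refine ok.pbd (holds_sub h.sameT h1 h2 h.mem) ?_ hN hG hp hB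
  rw [lowT, brec_and, brec_and, ble_iff, lall_iff, beq_iff, llen_eq] at h3
  have e : (gen c.P.n (fun i => (⟨f (o + i), h.mem _⟩ : H)) 0).map H.subtype = gen c.P.n (fun i => f (o + i)) 0 :=
    map_gen _ _ _ _
  have e' := Nat.card_congr (Subgroup.equivMapOfInjective (gen c.P.n (fun i => (⟨f (o + i), h.mem _⟩ : H)) 0)
    H.subtype H.subtype_injective).toEquiv
  rw [e] at e'
  have : Finite (gen c.P.n (fun i => f (o + i)) 0) :=
    Nat.finite_of_card_ne_zero (by rw [← e']; exact Nat.card_pos.ne')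
  rw [e']
  exact h3.2.2.trans (h.chain_le (h3.2.1 ▸ h4) fun w hw => ev_mem_gen (h3.1 w hw)).2

/-! ### tables -/

/-- the slices `s, …, s + B - 1` of the planes side by side -/
noncomputable def blk (B : ℕ) (Ps : List ℕ) (s : ℕ) : ℕ :=
  List.rec (motive := fun _ => ℕ) (nat_lit 0) (fun P _ r => force r fun r =>
    Nat.add (Nat.shiftLeft r B) (Nat.mod (Nat.shiftRight P s) (Nat.shiftLeft (nat_lit 1) B))) Ps

/-- the image of `x` under permutation number `i`; blocks of `2 ^ e` points, `nb` blocks for each permutation -/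
noncomputable def look (e F nb M Q : ℕ) (T : BT ℕ) (i x : ℕ) : ℕ :=
  force (Nat.add (Nat.mul i nb) (Nat.shiftRight x e)) fun j =>
    Nat.mod (Nat.land (Nat.shiftRight (T.get j) (Nat.land x F)) M) Q

noncomputable def tabRow (nets : List Net) (n k e nb : ℕ) (T : BT ℕ) (i : ℕ) : Bool :=
  forceL (tabl (fun j => (nth Net.nil nets i).bwd (nat_lit 1) (plane n j)) k) fun Ps =>
    force (Nat.shiftLeft (nat_lit 1) e) fun B => allBin (fun b => force (Nat.add (Nat.mul i nb) b) fun j =>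
      force (Nat.shiftLeft b e) fun s => Nat.beq (T.get j) (blk B Ps s)) nb k (nat_lit 0)

theorem blk_spec {B s r : ℕ} (hr : r < B) {Q : ℕ} (hQ : 2 ^ B ≡ 2 [MOD Q]) (Ps : List ℕ) (a : ℕ)
    (h : ∀ j < Ps.length, (nth 0 Ps j).testBit (s + r) = a.testBit j) :
    (blk B Ps s >>> r) &&& cm B Ps.length ≡ a % 2 ^ Ps.length [MOD Q] := by
  induction Ps generalizing a with
  | nil => simp [Nat.mod_one]; rfl
  | cons P Ps ih =>
    have e : blk B (P :: Ps) s = 2 ^ B * blk B Ps s + (P >>> s) % 2 ^ B := by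
      refine (force_eq (blk B Ps s) fun r =>
        Nat.add (Nat.shiftLeft r B) (Nat.mod (Nat.shiftRight P s) (Nat.shiftLeft (nat_lit 1) B))).trans ?_
      rw [one_shl, shl_eq, mul_comm]; rfl
    have h1 : (P >>> s) % 2 ^ B < 2 ^ B := Nat.mod_lt _ (by positivity)
    have h2 : blk B (P :: Ps) s >>> r >>> B = blk B Ps s >>> r := by
      rw [← Nat.shiftRight_add, add_comm, Nat.shiftRight_add, e, Nat.shiftRight_eq_div_pow _ B,
        Nat.mul_add_div (by positivity), Nat.div_eq_of_lt h1, add_zero]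
    have h3 : blk B (P :: Ps) s >>> r % 2 = a % 2 := by
      have h4 : (blk B (P :: Ps) s >>> r).testBit 0 = a.testBit 0 := by
        rw [Nat.testBit_shiftRight, e, add_zero, Nat.testBit_two_pow_mul_add _ h1, if_pos hr,
          Nat.testBit_mod_two_pow, Nat.testBit_shiftRight, decide_eq_true hr, Bool.true_and]
        exact h 0 (by simp)
      rw [Nat.testBit_zero, Nat.testBit_zero, decide_eq_decide] at h4
      omega
    rw [List.length_cons, land_cm_succ (by omega), h2, h3, pow_succ', Nat.mod_mul, add_comm]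
    refine (Nat.ModEq.refl _).add (hQ.mul (ih (a / 2) fun j hj => ?_))
    rw [Nat.testBit_div_two]
    exact h (j + 1) (by simpa using hj)

/-- the parameters of the tables -/
noncomputable def tabOK (n k e F nb M Q : ℕ) : Bool :=
  lall (fun b => b) [Nat.ble n (Nat.pow (nat_lit 2) k), Nat.ble (Nat.pow (nat_lit 2) k) Q,
    Nat.ble n (Nat.shiftLeft nb e), Nat.beq F (full e), Nat.beq M (cm (Nat.pow (nat_lit 2) e) k),
    Nat.beq (Nat.add (Nat.mul (nat_lit 2) Q) (nat_lit 2)) (Nat.pow (nat_lit 2) (Nat.pow (nat_lit 2) e)),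
    Nat.ble nb (Nat.pow (nat_lit 2) k)]

theorem ptOK_of_tab {nets : List Net} (h : Reps D nets f) {k e F nb M Q m : ℕ} {T : BT ℕ}
    (h0 : tabOK n k e F nb M Q = true) (hc : ∀ i < m, tabRow nets n k e nb T i = true) :
    PtOK D (look e F nb M Q T) f m := by
  intro i hi x hx
  simp only [tabOK, lall_iff, List.mem_cons, List.not_mem_nil, or_false, forall_eq_or_imp, forall_eq, ble_iff,
    beq_iff] at h0
  obtain ⟨a1, a2, a3, rfl, rfl, a6, a7⟩ := h0
  replace a1 : n ≤ 2 ^ k := a1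
  replace a2 : 2 ^ k ≤ Q := a2
  replace a6 : 2 * Q + 2 = 2 ^ 2 ^ e := a6
  rw [shl_eq] at a3
  have hw := h.wf
  have h1 := hc i hi
  rw [tabRow, forceL_eq, force_eq, one_shl] at h1
  have h2 : x / 2 ^ e < nb := Nat.div_lt_of_lt_mul (by rw [mul_comm]; omega)
  have h3 := allBin_spec h1 a7 _ h2
  rw [force_eq, force_eq, beq_iff, shl_eq] at h3
  have h4 : pf nets i x < n := (hw.supp i).lt hx
  have h5 := blk_spec (B := 2 ^ e) (s := x / 2 ^ e * 2 ^ e) (r := x % 2 ^ e) (Nat.mod_lt _ (by positivity)) (Q := Q)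
    (by rw [← a6]; simp [Nat.ModEq]) (tabl (fun j => (nth Net.nil nets i).bwd (nat_lit 1) (plane n j)) k) (pf nets i x)
    fun j hj => by
      rw [length_tabl] at hj
      rw [nth_tabl _ _ hj, Nat.div_add_mod', tb_bwd (hw i) (hw.supp i), testBit_plane]
      exact (congrArg (· && _) (decide_eq_true h4)).trans (Bool.true_and _)
  rw [length_tabl, Nat.mod_eq_of_lt (h4.trans_le a1), ← h3, Nat.ModEq, Nat.mod_eq_of_lt (by omega : pf nets i x < Q)] at h5
  have e1 : look e (full e) nb (cm (Nat.pow 2 e) k) Q T i x = pf nets i x := by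
    rw [look, force_eq, ← h5, full_eq, shr_eq x e, ← Nat.and_two_pow_sub_one_eq_mod]; rfl
  rw [e1]
  exact ⟨h4, (h.acts i).2 x hx⟩

end CF.Schur.Pc
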